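import Mathlib
import Cfsg.Agent.Lib.Helper80.BTStmt

set_option autoImplicit false

namespace Cfsg.Agent.Lib.Helper2.BTMODP

open Cfsg
open Cfsg.Agent.Lib.Helper80.BTStmt

universe u

theorem main : Cfsg.Agent.Lib.Helper80.BTStmt.MODP.{u} := by
  intro G _ _ p b g₀ hyp c hY hII hLoc hdeg
  obtain ⟨hsimple, hncyc, hp, hq, hpq, hcard, hg0⟩ := hyp
  haveI : Fact p.Prime := ⟨hp⟩
  obtain ⟨⟨θ, hθ⟩, hYf⟩ := hY
  have hf2 : 2 ≤ g₀ := by
    have := (hYf θ hθ).2.2.1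
    rw [hdeg θ hθ] at this
    exact this
  have hfe : g₀ + c.e = p := by
    have := hII.2 θ hθ
    rw [hdeg θ hθ] at this
    exact this
  have hn : Nat.card (Sylow p G) * (p * c.e) = p * 2 ^ b * g₀ := by
    rw [hLoc.2, hcard]
  have hn' : Nat.card (Sylow p G) * c.e = 2 ^ b * g₀ := by
    have : p * (Nat.card (Sylow p G) * c.e) = p * (2 ^ b * g₀) := by
      calc p * (Nat.card (Sylow p G) * c.e) = Nat.card (Sylow p G) * (p * c.e) := by ring
        _ = p * 2 ^ b * g₀ := hn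
        _ = p * (2 ^ b * g₀) := by ring
    exact Nat.eq_of_mul_eq_mul_left hp.pos this
  have hmod : Nat.card (Sylow p G) ≡ 1 [MOD p] := card_sylow_modEq_one p G
  have he1 : 1 ≤ c.e := by
    rcases Nat.eq_zero_or_pos c.e with h0 | h0
    · rw [h0, mul_zero] at hn'
      have : 0 < 2 ^ b * g₀ := by positivity
      omega
    · exact h0
  -- n e = 2^b g₀, n ≡ 1, g₀ = p - e
  have h1 : (p : ℤ) ∣ (Nat.card (Sylow p G) : ℤ) - 1 := by
    have := (Nat.modEq_iff_dvd.mp hmod.symm)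
    exact_mod_cast this
  have h2 : (p : ℤ) ∣ (c.e : ℤ) * (2 ^ b + 1) := by
    have e1 : (c.e : ℤ) * (2 ^ b + 1) = 2 ^ b * (p : ℤ) - ((Nat.card (Sylow p G) : ℤ) - 1) * c.e := by
      have e2 : (Nat.card (Sylow p G) : ℤ) * c.e = 2 ^ b * g₀ := by exact_mod_cast hn'
      have e3 : (g₀ : ℤ) + c.e = p := by exact_mod_cast hfe
      have e4 : ((Nat.card (Sylow p G) : ℤ) - 1) * c.e = 2 ^ b * g₀ - c.e := by rw [← e2]; ring
      rw [e4, ← e3]; ring
    rw [e1]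
    exact dvd_sub (Dvd.intro_left _ rfl) (Dvd.dvd.mul_right h1 _)
  have h3 : p ∣ c.e * (2 ^ b + 1) := by exact_mod_cast h2
  rcases (Nat.Prime.dvd_mul hp).mp h3 with h4 | h4
  · exfalso
    have := Nat.le_of_dvd (by omega) h4
    omega
  · exact h4

end Cfsg.Agent.Lib.Helper2.BTMODP
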