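import Mathlib
import Cfsg.Agent.Lib.Helper80.BTStmt

set_option autoImplicit false

namespace Cfsg.Agent.Lib.Helper2.BTNT1

theorem red (j d : ℕ) : ∀ a : ℕ,
    (((2:ℤ)^(j+1)+1) ∣ 2^a * d - 1 ∨ ((2:ℤ)^(j+1)+1) ∣ 2^a * d + 1) →
    ∃ r ≤ j, (((2:ℤ)^(j+1)+1) ∣ 2^r * d - 1 ∨ ((2:ℤ)^(j+1)+1) ∣ 2^r * d + 1) := by
  intro a
  induction a using Nat.strong_induction_on with
  | _ a ih =>
    intro h
    by_cases ha : a ≤ j
    · exact ⟨a, ha, h⟩
    · rw [not_le] at ha
      obtain ⟨c, rfl⟩ : ∃ c, a = c + (j+1) := ⟨a - (j+1), by omega⟩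
      apply ih c (by omega)
      rcases h with h | h
      · right
        have e1 : (2:ℤ)^c * d + 1 = 2^c * d * (2^(j+1)+1) - (2^(c+(j+1)) * d - 1) := by ring
        rw [e1]; exact dvd_sub (Dvd.intro_left _ rfl) h
      · left
        have e1 : (2:ℤ)^c * d - 1 = 2^c * d * (2^(j+1)+1) - (2^(c+(j+1)) * d + 1) := by ring
        rw [e1]; exact dvd_sub (Dvd.intro_left _ rfl) h

theorem main : Cfsg.Agent.Lib.Helper80.BTStmt.NT1 := by
  intro j a d hd h
  have h' : ((2:ℤ)^(j+1)+1) ∣ 2^a * d - 1 ∨ ((2:ℤ)^(j+1)+1) ∣ 2^a * d + 1 := by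
    rcases h with h | h
    · left
      have h1 := (Int.modEq_iff_dvd.mp h.symm)
      push_cast at h1
      exact h1
    · right
      have h1 := (Int.modEq_iff_dvd.mp h)
      push_cast at h1
      have h2 := (dvd_neg (a := ((2:ℤ)^(j+1)+1))).mpr h1
      have e1 : (2:ℤ)^a * d + 1 = -(-1 - 2^a * d) := by ring
      rw [e1]; exact h2
  obtain ⟨r, hr, h''⟩ := red j d a h'
  obtain ⟨d', hd'⟩ := hd
  obtain ⟨P, hP⟩ : ∃ P : ℕ, P = 2^j := ⟨_, rfl⟩
  have hP1 : 1 ≤ P := hP ▸ Nat.one_le_two_pow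
  have hPZ : (2:ℤ)^(j+1) = 2 * (P:ℤ) := by rw [hP]; push_cast; ring
  rw [hPZ] at h''
  rw [← hP] at hd' ⊢
  have hdpos : 1 ≤ d := by
    rcases Nat.eq_zero_or_pos d with h0 | h0
    · rw [h0] at hd'; omega
    · exact h0
  have hd'pos : 1 ≤ d' := by
    rcases Nat.eq_zero_or_pos d' with h0 | h0
    · rw [h0] at hd'; omega
    · exact h0
  have hdle : d ≤ P + 1 := by nlinarith
  have hd'le : d' ≤ P + 1 := by nlinarith
  have hdZ : ((P:ℤ) + 1) = d * d' := by exact_mod_cast hd'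
  rcases Nat.eq_zero_or_pos r with hr0 | hr0
  · subst hr0
    simp only [pow_zero, one_mul] at h''
    rcases h'' with h1 | h1
    · left
      have h2 := Int.eq_zero_of_dvd_of_nonneg_of_lt (by omega) (by omega) h1
      omega
    · right
      have h2 := Int.le_of_dvd (by omega) h1
      omega
  · obtain ⟨r', rfl⟩ : ∃ r', r = r' + 1 := ⟨r - 1, by omega⟩
    obtain ⟨R, hR⟩ : ∃ R : ℕ, R = 2^r' := ⟨_, rfl⟩
    have hR1 : 1 ≤ R := hR ▸ Nat.one_le_two_pow
    have hRP : 2 * R ≤ P := by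
      rw [hR, hP, ← pow_succ']
      exact Nat.pow_le_pow_right (by norm_num) hr
    have hRZ : (2:ℤ)^(r'+1) = 2 * (R:ℤ) := by rw [hR]; push_cast; ring
    rw [hRZ] at h''
    right
    rcases h'' with h1 | h1
    · -- (2P+1) ∣ 2 R d - 1, so (2P+1) ∣ R - d'
      have h2 : (2 * (P:ℤ) + 1) ∣ (R:ℤ) - d' := by
        have e1 : (R:ℤ) - d' = (2 * R * d - 1) * d' - R * (2 * P + 1) := by
          have : (2 * (R:ℤ) * d - 1) * d' = 2 * R * (d * d') - d' := by ring
          rw [this, ← hdZ]; ring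
        rw [e1]; exact dvd_sub (Dvd.dvd.mul_right h1 _) (Dvd.intro_left _ rfl)
      have h3 : (R:ℤ) - d' = 0 := by
        apply Int.eq_zero_of_abs_lt_dvd h2
        rw [abs_lt]; constructor <;> omega
      have h4 : d' = R := by omega
      -- R = 2^r' divides P + 1 = 2^j + 1
      rcases Nat.eq_zero_or_pos r' with hr'0 | hr'0
      · subst hr'0
        simp only [pow_zero] at hR
        rw [h4, hR, mul_one] at hd'
        exact hd'.symm
      · exfalso
        have h5 : 2 ∣ R := by rw [hR]; exact dvd_pow_self 2 (by omega)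
        have h6 : 2 ∣ P := by rw [hP]; exact dvd_pow_self 2 (by omega)
        have h7 : 2 ∣ P + 1 := by rw [hd', h4]; exact Dvd.dvd.mul_left h5 _
        omega
    · exfalso
      have h2 : (2 * (P:ℤ) + 1) ∣ (R:ℤ) + d' := by
        have e1 : (R:ℤ) + d' = (2 * R * d + 1) * d' - R * (2 * P + 1) := by
          have : (2 * (R:ℤ) * d + 1) * d' = 2 * R * (d * d') + d' := by ring
          rw [this, ← hdZ]; ring
        rw [e1]; exact dvd_sub (Dvd.dvd.mul_right h1 _) (Dvd.intro_left _ rfl)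
      have h3 := Int.le_of_dvd (by omega) h2
      omega

end Cfsg.Agent.Lib.Helper2.BTNT1
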