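import Mathlib
import Cfsg.Agent.Lib.Helper80.BTStmt

set_option autoImplicit false

namespace Cfsg.Agent.Lib.Helper2.BTNT2

theorem red (k : ℕ) (hk : 1 ≤ k) : ∀ b : ℕ,
    ((((2:ℤ)^k+1) ∣ 2^b + 1 → ∃ s : ℕ, b = k * (2 * s + 1)) ∧
     (((2:ℤ)^k+1) ∣ 2^b - 1 → ∃ s : ℕ, b = k * (2 * s))) := by
  intro b
  induction b using Nat.strong_induction_on with
  | _ b ih =>
    by_cases hb : b < k
    · have h1 : (2:ℤ)^b * 2 ≤ 2^k := by
        rw [← pow_succ]
        exact pow_le_pow_right₀ (by norm_num) (by omega)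
      have h2 : (1:ℤ) ≤ 2^b := one_le_pow₀ (by norm_num)
      constructor
      · intro h
        have h3 := Int.le_of_dvd (by linarith) h
        linarith
      · intro h
        have h3 : (2:ℤ)^b - 1 = 0 := by
          apply Int.eq_zero_of_dvd_of_nonneg_of_lt (by linarith) (by linarith) h
        have h4 : (2:ℤ)^b = 2^0 := by rw [pow_zero]; linarith
        have h5 : b = 0 := by
          have := pow_right_injective₀ (a := (2:ℤ)) (by norm_num) (by norm_num) h4
          exact this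
        exact ⟨0, by rw [h5]; simp⟩
    · rw [not_lt] at hb
      obtain ⟨c, rfl⟩ : ∃ c, b = c + k := ⟨b - k, by omega⟩
      have ihc := ih c (by omega)
      constructor
      · intro h
        have h1 : ((2:ℤ)^k+1) ∣ 2^c - 1 := by
          have e1 : (2:ℤ)^c - 1 = 2^c * (2^k + 1) - (2^(c+k) + 1) := by ring
          rw [e1]; exact dvd_sub (Dvd.intro_left _ rfl) h
        obtain ⟨s, hs⟩ := ihc.2 h1
        exact ⟨s, by rw [hs]; ring⟩
      · intro h
        have h1 : ((2:ℤ)^k+1) ∣ 2^c + 1 := by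
          have e1 : (2:ℤ)^c + 1 = 2^c * (2^k + 1) - (2^(c+k) - 1) := by ring
          rw [e1]; exact dvd_sub (Dvd.intro_left _ rfl) h
        obtain ⟨s, hs⟩ := ihc.1 h1
        exact ⟨s + 1, by rw [hs]; ring⟩

theorem main : Cfsg.Agent.Lib.Helper80.BTStmt.NT2 := by
  intro k b e f hfe he hdvd hle
  rcases Nat.eq_zero_or_pos k with hk | hk
  · subst hk
    rcases Nat.eq_zero_or_pos b with hb | hb
    · rw [hb]
    · exfalso
      have h1 : 2 ∣ 2 ^ b := dvd_pow_self 2 (by omega)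
      have h2 : 2 ∣ 2 ^ b + 1 := by simpa using hdvd
      omega
  · have hdvdZ : ((2:ℤ)^k+1) ∣ 2^b + 1 := by exact_mod_cast hdvd
    obtain ⟨s, hs⟩ := (red k hk b).1 hdvdZ
    rcases Nat.eq_zero_or_pos s with hs0 | hs0
    · rw [hs, hs0]; simp
    · exfalso
      have hb3 : 3 * k ≤ b := by rw [hs]; nlinarith
      obtain ⟨P, hP⟩ : ∃ P : ℕ, P = 2^k := ⟨_, rfl⟩
      have hP1 : 1 ≤ P := hP ▸ Nat.one_le_two_pow
      have h3 : P ^ 3 ≤ 2 ^ b := by
        rw [hP, ← pow_mul, mul_comm]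
        exact Nat.pow_le_pow_right (by norm_num) hb3
      rw [← hP] at hfe hle
      obtain ⟨e', rfl⟩ : ∃ e', e = e' + 1 := ⟨e - 1, by omega⟩
      simp only [Nat.add_sub_cancel] at hle
      have h4 : P ^ 3 ≤ (P + 1) * f * e' := le_trans h3 hle
      have h5 : f + e' = P := by omega
      subst h5
      have h6 : 4 * (f * e') ≤ (f + e') ^ 2 := by nlinarith [sq_nonneg ((f:ℤ) - e'), sq_nonneg (f - e'), Nat.zero_le (f * e')]
      have h7 : 4 * (f + e') ^ 3 ≤ (f + e' + 1) * (f + e') ^ 2 := by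
        calc 4 * (f + e') ^ 3 ≤ 4 * ((f + e' + 1) * f * e') := by omega
          _ = (f + e' + 1) * (4 * (f * e')) := by ring
          _ ≤ (f + e' + 1) * (f + e') ^ 2 := Nat.mul_le_mul_left _ h6
      have h8 : 0 < (f + e') ^ 2 := by positivity
      have h9 : 4 * (f + e') ≤ f + e' + 1 := by
        have : (f + e') ^ 2 * (4 * (f + e')) ≤ (f + e') ^ 2 * (f + e' + 1) := by
          calc (f + e') ^ 2 * (4 * (f + e')) = 4 * (f + e') ^ 3 := by ring
            _ ≤ (f + e' + 1) * (f + e') ^ 2 := h7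
            _ = (f + e') ^ 2 * (f + e' + 1) := by ring
        exact Nat.le_of_mul_le_mul_left this h8
      omega

end Cfsg.Agent.Lib.Helper2.BTNT2
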