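import Mathlib
import Cfsg.Agent.Lib.Helper80.BTStmt
import Cfsg.Agent.S4729

set_option autoImplicit false

namespace Cfsg.Agent.Lib.Helper2.BTSC

open Cfsg
open Cfsg.Agent.Lib.Helper80.BTStmt
open scoped commutatorElement

universe u

theorem perfect_of_simple {G : Type u} [Group G] (hs : IsSimpleGroup G) (hc : ¬ IsCyclic G) :
    commutator G = ⊤ := by
  haveI := hs
  rcases IsSimpleGroup.eq_bot_or_eq_top_of_normal (commutator G) inferInstance with h | h
  · exfalso
    apply hc
    have hcomm : ∀ a b : G, a * b = b * a := by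
      intro a b
      have h1 : ⁅a, b⁆ ∈ commutator G :=
        Subgroup.commutator_mem_commutator (Subgroup.mem_top a) (Subgroup.mem_top b)
      rw [h, Subgroup.mem_bot, commutatorElement_eq_one_iff_mul_comm] at h1
      exact h1
    obtain ⟨g, hg⟩ := exists_ne (1 : G)
    haveI : (Subgroup.zpowers g).Normal :=
      ⟨fun n hn x => by rw [hcomm x n, mul_inv_cancel_right]; exact hn⟩
    rcases IsSimpleGroup.eq_bot_or_eq_top_of_normal (Subgroup.zpowers g) inferInstance with h1 | h1
    · exact absurd (Subgroup.zpowers_eq_bot.mp h1) hg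
    · exact isCyclic_iff_exists_zpowers_eq_top.mpr ⟨g, h1⟩
  · exact h

theorem cent_eq {G : Type u} [Group G] [Finite G] {p : ℕ} [Fact p.Prime] (Q : Sylow p G)
    (hQ : Nat.card Q = p)
    (hC : IsPGroup p (Subgroup.centralizer ((Q : Subgroup G) : Set G))) :
    Subgroup.centralizer ((Q : Subgroup G) : Set G) = Q := by
  apply Q.is_maximal' hC
  haveI : IsCyclic (Q : Subgroup G) := isCyclic_of_prime_card hQ
  intro x hx
  rw [Subgroup.mem_centralizer_iff]
  intro y hy
  have h1 := mul_comm' (⟨y, hy⟩ : (Q : Subgroup G)) ⟨x, hx⟩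
  exact congrArg Subtype.val h1

theorem main : Cfsg.Agent.Lib.Helper80.BTStmt.SC.{u} := by
  intro G _ _ p q b g₀ hyp c hY hII
  obtain ⟨hsimple, hncyc, hp, hq, hpq, hcard, hg0⟩ := hyp
  haveI : Fact p.Prime := ⟨hp⟩
  obtain ⟨⟨θ, hθ⟩, hYf⟩ := hY
  obtain ⟨hθq, hθdvd, hθ2, hθfaith⟩ := hYf θ hθ
  have hperf := perfect_of_simple hsimple hncyc
  have hθB : θ ∈ principalBlock c.M G := by rw [c.hXY]; exact Or.inr hθ
  have hdeg : charDegree (θ : G → ℂ) < 2 * p := by
    have := hII.2 θ hθ
    omega
  have hPG : ∀ Q : Sylow p G, IsPGroup p (Subgroup.centralizer ((Q : Subgroup G) : Set G)) :=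
    fun Q => Cfsg.Agent.S4729.result p c.M c.hM hperf Q θ hθB hθfaith hdeg
  have hcardQ : ∀ Q : Sylow p G, Nat.card Q = p := by
    intro Q
    rw [Q.card_eq_multiplicity, ← c.P.card_eq_multiplicity]
    exact c.hP
  have hcent : ∀ Q : Sylow p G, Subgroup.centralizer ((Q : Subgroup G) : Set G) = Q :=
    fun Q => cent_eq Q (hcardQ Q) (hPG Q)
  constructor
  · intro g hg
    obtain ⟨m, hm⟩ := hg
    have hm0 : m ≠ 0 := by
      rintro rfl
      rw [mul_zero] at hm
      exact (orderOf_pos g).ne' hm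
    have hord : orderOf (g ^ m) = p := by
      rw [orderOf_pow_of_dvd hm0 ⟨p, by rw [hm, mul_comm]⟩, hm]
      exact Nat.mul_div_cancel _ (Nat.pos_of_ne_zero hm0)
    have hPg : IsPGroup p (Subgroup.zpowers (g ^ m)) :=
      IsPGroup.of_card (n := 1) (by rw [Nat.card_zpowers, hord, pow_one])
    obtain ⟨Q, hQ⟩ := hPg.exists_le_sylow
    have hQeq : Subgroup.zpowers (g ^ m) = (Q : Subgroup G) := by
      apply Subgroup.eq_of_le_of_card_ge hQ
      rw [Nat.card_zpowers, hord, hcardQ Q]
    have hgC : g ∈ Subgroup.centralizer ((Q : Subgroup G) : Set G) := by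
      rw [← hQeq, Subgroup.mem_centralizer_iff]
      intro h hh
      obtain ⟨k, rfl⟩ := Subgroup.mem_zpowers_iff.mp hh
      exact (((Commute.refl g).pow_left m).zpow_left k).eq
    rw [hcent Q] at hgC
    have h1 : orderOf g ∣ p := by
      have h2 := Subgroup.orderOf_dvd_natCard (Q : Subgroup G) hgC
      rwa [hcardQ Q] at h2
    exact Nat.dvd_antisymm h1 ⟨m, hm⟩
  · rw [c.P.card_eq_index_normalizer]
    have hN : Nat.card (Subgroup.normalizer ((c.P : Subgroup G) : Set G)) = p * c.e := by
      have hCN := Subgroup.centralizer_le_normalizer ((c.P : Subgroup G) : Set G)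
      have h2 := Subgroup.card_mul_index ((Subgroup.centralizer ((c.P : Subgroup G) : Set G)).subgroupOf
        (Subgroup.normalizer ((c.P : Subgroup G) : Set G)))
      have h3 : Nat.card ((Subgroup.centralizer ((c.P : Subgroup G) : Set G)).subgroupOf
        (Subgroup.normalizer ((c.P : Subgroup G) : Set G))) = p := by
        rw [Nat.card_congr (Subgroup.subgroupOfEquivOfLe hCN).toEquiv, hcent c.P]
        exact c.hP
      have h4 : ((Subgroup.centralizer ((c.P : Subgroup G) : Set G)).subgroupOf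
        (Subgroup.normalizer ((c.P : Subgroup G) : Set G))).index = c.e := c.he
      rw [h3, h4] at h2
      exact h2.symm
    rw [← hN]
    exact Subgroup.index_mul_card _

end Cfsg.Agent.Lib.Helper2.BTSC
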