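import Mathlib
import Cfsg.Agent.Lib.Lead.BrHalfStmt
import Cfsg.Agent.Lib.CT.Wedderburn
import Cfsg.Agent.Lib.Helper76.GaloisConj

/-!
Piece CardL of S4504 (part C): the order of `L` is `p (p - 1) n |Z| / 2`.
-/

set_option autoImplicit false

namespace Cfsg.Agent.Lib.Helper2.BrCCardL

open Cfsg Cfsg.Agent.Lib.Lead
open scoped ComplexConjugate Classical

universe u

theorem main (hKEx : BrHalf.KEx.{u}) (hDSq : BrHalf.DSq.{u}) (hCountSing : BrHalf.CountSing.{u})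
    (hCountP : BrHalf.CountP.{u}) (hPerDiff : BrHalf.PerDiff) : BrHalf.CardL.{u} := by
  intro L _ _ p _ c
  obtain ⟨k, hk⟩ := hKEx p c
  have hk' := hk
  obtain ⟨hcop, hns, hreg⟩ := hk
  have hp2 : p ≠ 2 := by have := c.hp5; omega
  have hpprime : p.Prime := Fact.out
  have hAB : (BrHalf.per p c.ζ 1 - BrHalf.per p c.ζ k) *
      conj (BrHalf.per p c.ζ 1 - BrHalf.per p c.ζ k) = (p : ℂ) := by
    have := hPerDiff p hp2 c.ζ c.hζ 1 k
      (by intro h; have := Nat.le_of_dvd one_pos h; have := c.hp5; omega) hns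
    rwa [one_mul] at this
  have hABne : BrHalf.per p c.ζ 1 ≠ BrHalf.per p c.ζ k := by
    intro h
    rw [h, sub_self, zero_mul] at hAB
    have : (p : ℂ) ≠ 0 := Nat.cast_ne_zero.mpr hpprime.ne_zero
    exact this hAB.symm
  have hσirr : IsIrrCharacter L (fun h => c.ξ (h ^ k)) :=
    Cfsg.Agent.Lib.Helper76.GaloisConj.isIrrCharacter_pow c.hξ k hcop
  -- the two irreducible characters are distinct
  have hne : (⟨c.ξ, c.hξ⟩ : IrrCharacter L) ≠ ⟨fun h => c.ξ (h ^ k), hσirr⟩ := by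
    intro h
    have h1 := congrFun (congrArg Subtype.val h) c.x
    simp only at h1
    have h2 := c.hres 1
    have h3 := c.hres k
    rw [pow_one] at h2
    rw [h2, h3] at h1
    exact hABne h1
  have hcardne : (Nat.card L : ℂ) ≠ 0 := Nat.cast_ne_zero.mpr Nat.card_pos.ne'
  have o11 := Cfsg.Agent.Lib.CT.Wedderburn.irr_orthonormal
    (⟨c.ξ, c.hξ⟩ : IrrCharacter L) ⟨c.ξ, c.hξ⟩
  have o22 := Cfsg.Agent.Lib.CT.Wedderburn.irr_orthonormal
    (⟨fun h => c.ξ (h ^ k), hσirr⟩ : IrrCharacter L) ⟨fun h => c.ξ (h ^ k), hσirr⟩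
  have o12 := Cfsg.Agent.Lib.CT.Wedderburn.irr_orthonormal
    (⟨c.ξ, c.hξ⟩ : IrrCharacter L) ⟨fun h => c.ξ (h ^ k), hσirr⟩
  have o21 := Cfsg.Agent.Lib.CT.Wedderburn.irr_orthonormal
    (⟨fun h => c.ξ (h ^ k), hσirr⟩ : IrrCharacter L) ⟨c.ξ, c.hξ⟩
  rw [if_pos rfl] at o11 o22
  rw [if_neg hne] at o12
  rw [if_neg (Ne.symm hne)] at o21
  unfold classInner at o11 o22 o12 o21
  simp only at o11 o22 o12 o21
  have s11 : ∑ g : L, c.ξ g * conj (c.ξ g) = (Nat.card L : ℂ) := by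
    have := congrArg (fun z => (Nat.card L : ℂ) * z) o11
    simpa [← mul_assoc, mul_inv_cancel₀ hcardne] using this
  have s22 : ∑ g : L, c.ξ (g ^ k) * conj (c.ξ (g ^ k)) = (Nat.card L : ℂ) := by
    have := congrArg (fun z => (Nat.card L : ℂ) * z) o22
    simpa [← mul_assoc, mul_inv_cancel₀ hcardne] using this
  have s12 : ∑ g : L, c.ξ g * conj (c.ξ (g ^ k)) = 0 := by
    have := congrArg (fun z => (Nat.card L : ℂ) * z) o12
    simpa [← mul_assoc, mul_inv_cancel₀ hcardne] using this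
  have s21 : ∑ g : L, c.ξ (g ^ k) * conj (c.ξ g) = 0 := by
    have := congrArg (fun z => (Nat.card L : ℂ) * z) o21
    simpa [← mul_assoc, mul_inv_cancel₀ hcardne] using this
  -- the sum of `|D|^2`
  have hD1 : ∑ g : L, c.D k g * conj (c.D k g) = 2 * (Nat.card L : ℂ) := by
    unfold BrHalf.Ctx.D
    have : ∀ g : L, (c.ξ g - c.ξ (g ^ k)) * conj (c.ξ g - c.ξ (g ^ k))
        = c.ξ g * conj (c.ξ g) - c.ξ g * conj (c.ξ (g ^ k)) - c.ξ (g ^ k) * conj (c.ξ g)
          + c.ξ (g ^ k) * conj (c.ξ (g ^ k)) := by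
      intro g
      rw [map_sub]; ring
    simp only [this, Finset.sum_add_distrib, Finset.sum_sub_distrib]
    rw [s11, s22, s12, s21]
    ring
  have hD2 : ∑ g : L, c.D k g * conj (c.D k g)
      = ∑ g : L, if p ∣ orderOf g then (p : ℂ) else 0 :=
    Finset.sum_congr rfl (fun g _ => hDSq p c k hk' g)
  have hcs := hCountSing p c (fun _ => (p : ℂ)) (fun _ _ _ => rfl)
  have hcp := hCountP p c (fun _ => (p : ℂ)) (fun _ _ => rfl)
  beta_reduce at hcs hcp
  rw [hD2, hcs, hcp, Finset.sum_const, Nat.card_Ico, nsmul_eq_mul] at hD1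
  have hp1 : 1 ≤ p := hpprime.one_lt.le
  have hfin : ((2 * Nat.card L : ℕ) : ℂ) = ((p * (p - 1) * c.n * c.zc : ℕ) : ℂ) := by
    push_cast [Nat.cast_sub hp1]
    rw [← hD1]
    push_cast [Nat.cast_sub hp1]
    ring
  exact_mod_cast hfin

end Cfsg.Agent.Lib.Helper2.BrCCardL
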