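import Mathlib
import Cfsg.Agent.Lib.Lead.BrHalfStmt
import Cfsg.Agent.Lib.CT.Wedderburn
import Cfsg.Agent.Lib.Helper76.GaloisConj

/-!
Piece HBSig of S4504 (part C): the hypothesis `HB` passes to the Galois conjugate of `ξ`.
-/

set_option autoImplicit false

namespace Cfsg.Agent.Lib.Helper2.BrCHBSig

open Cfsg Cfsg.Agent.Lib.Lead
open scoped ComplexConjugate Classical

universe u

theorem main : BrHalf.HBSig.{u} := by
  intro L _ _ p _ c k hk
  obtain ⟨hcop, hns, hreg⟩ := hk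
  have hpprime : p.Prime := Fact.out
  have hN1 : 1 < Nat.card L := by
    have h1 : p ∣ Nat.card L := by
      have h0 := Subgroup.card_subgroup_dvd_card (c.P : Subgroup L)
      rwa [c.hP] at h0
    have h2 := Nat.le_of_dvd Nat.card_pos h1
    have h3 := c.hp5
    omega
  obtain ⟨m, -, hm⟩ := Nat.exists_mul_mod_eq_one_of_coprime hcop hN1
  have hmcop : m.Coprime (Nat.card L) := by
    apply Nat.coprime_of_mul_modEq_one k
    show m * k % Nat.card L = 1 % Nat.card L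
    rw [mul_comm, hm, Nat.mod_eq_of_lt hN1]
  have hpow1 : ∀ g : L, (g ^ k) ^ m = g := by
    intro g
    rw [← pow_mul, ← pow_mod_natCard, hm, pow_one]
  intro ψ hψ1 hψ2
  have hψ'irr : IsIrrCharacter L (fun g => (ψ : L → ℂ) (g ^ m)) :=
    Cfsg.Agent.Lib.Helper76.GaloisConj.isIrrCharacter_pow ψ.2 m hmcop
  have hA : ∃ g, ((⟨fun g => (ψ : L → ℂ) (g ^ m), hψ'irr⟩ : IrrCharacter L) : L → ℂ) g ≠ 1 := by
    obtain ⟨g₀, hg₀⟩ := hψ1
    refine ⟨g₀ ^ k, ?_⟩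
    show (ψ : L → ℂ) ((g₀ ^ k) ^ m) ≠ 1
    rw [hpow1]; exact hg₀
  have hB : (∑ g : L, c.ξ g * conj (c.ξ g) *
      conj (((⟨fun g => (ψ : L → ℂ) (g ^ m), hψ'irr⟩ : IrrCharacter L) : L → ℂ) g)) ≠ 0 := by
    intro h0
    apply hψ2
    rw [← h0]
    have hre : ∑ g : L, c.ξ g * conj (c.ξ g) * conj ((ψ : L → ℂ) (g ^ m))
        = ∑ h : L, c.ξ (h ^ k) * conj (c.ξ (h ^ k)) * conj ((ψ : L → ℂ) ((h ^ k) ^ m)) :=
      (Equiv.sum_comp (powCoprime hcop.symm)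
        (fun g => c.ξ g * conj (c.ξ g) * conj ((ψ : L → ℂ) (g ^ m)))).symm
    show _ = ∑ g : L, c.ξ g * conj (c.ξ g) * conj ((ψ : L → ℂ) (g ^ m))
    rw [hre]
    apply Finset.sum_congr rfl
    intro h _
    rw [hpow1]
  have key := c.hB ⟨fun g => (ψ : L → ℂ) (g ^ m), hψ'irr⟩ hA hB
  have key' : ((p : ℂ) + 1) * (∑ u : L, if u ∈ (c.P : Subgroup L) then (ψ : L → ℂ) (u ^ m) else 0)
      = 2 * (p : ℂ) * (ψ : L → ℂ) 1 := by
    have h1 : (ψ : L → ℂ) ((1 : L) ^ m) = (ψ : L → ℂ) 1 := by rw [one_pow]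
    rw [← h1]
    exact key
  rw [← key']
  congr 1
  have hre : ∑ u : L, (if u ∈ (c.P : Subgroup L) then (ψ : L → ℂ) (u ^ m) else 0)
      = ∑ v : L, (if v ^ k ∈ (c.P : Subgroup L) then (ψ : L → ℂ) ((v ^ k) ^ m) else 0) :=
    (Equiv.sum_comp (powCoprime hcop.symm)
      (fun u => if u ∈ (c.P : Subgroup L) then (ψ : L → ℂ) (u ^ m) else 0)).symm
  rw [hre]
  apply Finset.sum_congr rfl
  intro v _
  by_cases h : v ∈ (c.P : Subgroup L)
  · rw [if_pos h, if_pos (Subgroup.pow_mem _ h k), hpow1]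
  · rw [if_neg h, if_neg]
    intro h'
    apply h
    have := Subgroup.pow_mem _ h' m
    rwa [hpow1] at this

end Cfsg.Agent.Lib.Helper2.BrCHBSig
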