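import Mathlib
import Cfsg.Agent.Lib.Lead.BrHalfStmt
import Cfsg.Agent.Lib.CT.Wedderburn
import Cfsg.Agent.Lib.Helper76.GaloisConj

/-!
Piece KapSum of S4504 (part C): the class sum weighted by the sign function on the elements of
order `p`, applied to `D = ξ - ξ^σ`.
-/

set_option autoImplicit false

namespace Cfsg.Agent.Lib.Helper2.BrCKapSum

open Cfsg Cfsg.Agent.Lib.Lead
open scoped ComplexConjugate Classical

universe u

/-- the product of two non-squares modulo an odd prime is a square -/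
theorem isSquare_mul_of_not {p : ℕ} [Fact p.Prime] {a b : ZMod p}
    (ha : ¬ IsSquare a) (hb : ¬ IsSquare b) : IsSquare (a * b) := by
  have ha0 : a ≠ 0 := fun h => ha (h ▸ IsSquare.zero)
  have hb0 : b ≠ 0 := fun h => hb (h ▸ IsSquare.zero)
  rw [← quadraticChar_neg_one_iff_not_isSquare] at ha hb
  rw [← quadraticChar_one_iff_isSquare (mul_ne_zero ha0 hb0), map_mul, ha, hb]
  norm_num

/-- the product of a nonzero square and a non-square is a non-square -/
theorem not_isSquare_mul {p : ℕ} [Fact p.Prime] {a b : ZMod p} (ha0 : a ≠ 0)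
    (ha : IsSquare a) (hb : ¬ IsSquare b) : ¬ IsSquare (a * b) := by
  rw [← quadraticChar_one_iff_isSquare ha0] at ha
  rw [← quadraticChar_neg_one_iff_not_isSquare] at hb ⊢
  rw [map_mul, ha, hb]
  norm_num

theorem main (hCS : BrHalf.CS.{u}) (hCountP : BrHalf.CountP.{u}) (hSqSum : BrHalf.SqSum)
    (hPerClass : BrHalf.PerClass) (hPerDiff : BrHalf.PerDiff) (hXiCent : BrHalf.XiCent.{u}) :
    BrHalf.KapSum.{u} := by
  intro L _ _ p _ c k hk g hg
  obtain ⟨hcop, hns, hreg⟩ := hk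
  have hp2 : p ≠ 2 := by have := c.hp5; omega
  have hpprime : p.Prime := Fact.out
  have hAB : (BrHalf.per p c.ζ 1 - BrHalf.per p c.ζ k) *
      conj (BrHalf.per p c.ζ 1 - BrHalf.per p c.ζ k) = (p : ℂ) := by
    have := hPerDiff p hp2 c.ζ c.hζ 1 k
      (by intro h; have := Nat.le_of_dvd one_pos h; have := c.hp5; omega) hns
    rwa [one_mul] at this
  have hABne : BrHalf.per p c.ζ 1 ≠ BrHalf.per p c.ζ k := by
    intro h
    rw [h, sub_self, zero_mul] at hAB
    have : (p : ℂ) ≠ 0 := Nat.cast_ne_zero.mpr hpprime.ne_zero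
    exact this hAB.symm
  have hξchar : IsCharacter L c.ξ := Cfsg.Agent.Lib.CT.Wedderburn.isCharacter_of_irr c.hξ
  have hξcf : IsClassFunction L c.ξ := Cfsg.Agent.Lib.CT.Wedderburn.char_isClassFunction hξchar
  have hσirr : IsIrrCharacter L (fun h => c.ξ (h ^ k)) :=
    Cfsg.Agent.Lib.Helper76.GaloisConj.isIrrCharacter_pow c.hξ k hcop
  have hkapcf : IsClassFunction L c.kap := by
    intro u h
    unfold BrHalf.Ctx.kap
    have h1 : orderOf (h * u * h⁻¹) = orderOf u := by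
      have := (MulAut.conj h).orderOf_eq u
      simpa [MulAut.conj_apply] using this
    rw [h1, hξcf u h]
  -- the function on the elements of order `p`
  obtain ⟨Fn, hFn⟩ : ∃ Fn : L → ℂ, Fn = fun u => c.kap u * (c.ξ u - c.ξ (u ^ k)) := ⟨_, rfl⟩
  have hFapp : ∀ u, Fn u = c.kap u * (c.ξ u - c.ξ (u ^ k)) := fun u => by rw [hFn]
  -- Schur
  have h1 := hCS c.ξ c.hξ c.kap hkapcf g
  have h2 := hCS (fun h => c.ξ (h ^ k)) hσirr c.kap hkapcf g
  beta_reduce at h2
  rw [hreg g hg, one_pow] at h2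
  have hsum : ∑ u : L, c.kap u * c.D k (g * u) = c.ξ g / c.ξ 1 * ∑ u : L, Fn u := by
    unfold BrHalf.Ctx.D
    simp only [hFapp, mul_sub, Finset.sum_sub_distrib]
    rw [h1, h2]
  have hFcf : IsClassFunction L Fn := by
    intro u h
    rw [hFapp, hFapp, hkapcf u h, hξcf u h, conj_pow, hξcf (u ^ k) h]
  have hF0 : ∀ u : L, Fn u = if orderOf u = p then Fn u else 0 := by
    intro u
    by_cases h : orderOf u = p
    · rw [if_pos h]
    · rw [if_neg h, hFapp]; unfold BrHalf.Ctx.kap; rw [if_neg h, zero_mul]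
  have hsum2 : ∑ u : L, Fn u = (c.n : ℂ) * ∑ a ∈ Finset.Ico 1 p, Fn (c.x ^ a) := by
    rw [← hCountP p c Fn hFcf]
    exact Finset.sum_congr rfl (fun u _ => hF0 u)
  have hordx : orderOf c.x = p := by
    have h1 : orderOf c.x ∣ p := by
      have h0 := Subgroup.orderOf_dvd_natCard _ c.hx
      rwa [c.hP] at h0
    rcases (Nat.dvd_prime hpprime).1 h1 with h | h
    · exact absurd (orderOf_eq_one_iff.1 h) c.hx1
    · exact h
  have hkz : ¬ p ∣ k := by
    intro h
    apply hns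
    have : ((k : ℕ) : ZMod p) = 0 := (ZMod.natCast_eq_zero_iff k p).2 h
    rw [this]; exact IsSquare.zero
  have hFval : ∀ a : ℕ, ¬ p ∣ a → Fn (c.x ^ a) = BrHalf.per p c.ζ 1 - BrHalf.per p c.ζ k := by
    intro a ha
    have hord : orderOf (c.x ^ a) = p := by
      rw [Nat.Coprime.orderOf_pow, hordx]
      rw [hordx]; exact (Nat.Prime.coprime_iff_not_dvd hpprime).2 ha
    have ha0 : ((a : ℕ) : ZMod p) ≠ 0 := fun h => ha ((ZMod.natCast_eq_zero_iff a p).1 h)
    have hak : ¬ p ∣ a * k := fun h => (hpprime.dvd_mul.1 h).elim ha hkz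
    rw [hFapp, ← pow_mul, c.hres a, c.hres (a * k)]
    unfold BrHalf.Ctx.kap
    rw [if_pos hord, c.hres a]
    by_cases hsq : IsSquare ((a : ℕ) : ZMod p)
    · have e1 : BrHalf.per p c.ζ a = BrHalf.per p c.ζ 1 := (hPerClass p c.ζ c.hζ a k ha).1 hsq
      have hnsq : ¬ IsSquare (((a * k : ℕ)) : ZMod p) := by
        rw [Nat.cast_mul]; exact not_isSquare_mul ha0 hsq hns
      have e2 : BrHalf.per p c.ζ (a * k) = BrHalf.per p c.ζ k :=
        (hPerClass p c.ζ c.hζ (a * k) k hak).2 hnsq hns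
      rw [e1, e2, if_pos rfl, one_mul]
    · have e1 : BrHalf.per p c.ζ a = BrHalf.per p c.ζ k := (hPerClass p c.ζ c.hζ a k ha).2 hsq hns
      have hsq2 : IsSquare (((a * k : ℕ)) : ZMod p) := by
        rw [Nat.cast_mul]; exact isSquare_mul_of_not hsq hns
      have e2 : BrHalf.per p c.ζ (a * k) = BrHalf.per p c.ζ 1 :=
        (hPerClass p c.ζ c.hζ (a * k) k hak).1 hsq2
      rw [e1, e2, if_neg (Ne.symm hABne)]
      ring
  have hsq := hSqSum p hp2 (fun a => Fn (c.x ^ a))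
    (BrHalf.per p c.ζ 1 - BrHalf.per p c.ζ k) (BrHalf.per p c.ζ 1 - BrHalf.per p c.ζ k)
    (fun a ha _ => hFval a ha) (fun a ha _ => hFval a ha)
  beta_reduce at hsq
  obtain ⟨hξ1, -⟩ := hXiCent p c
  have he : (p - 1) / 2 = c.e := by
    have := c.hdeg; unfold BrHalf.Ctx.e; omega
  have he0 : (c.e : ℂ) ≠ 0 := by
    have h5 := c.hp5
    have hd := c.hdeg
    have : c.e ≠ 0 := by unfold BrHalf.Ctx.e; omega
    exact Nat.cast_ne_zero.mpr this
  rw [hsum, hsum2, hsq, he, hξ1]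
  field_simp
  ring

end Cfsg.Agent.Lib.Helper2.BrCKapSum
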