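import Mathlib
import Cfsg.Agent.Lib.Helper76.BrRBStmt

/-!
# S4504, part R, piece NN: a Sylow subgroup which is normal in its normal closure is normal
-/

set_option autoImplicit false

namespace Cfsg.Agent.Lib.Helper2.BrRBNN

universe u

theorem main : Cfsg.Agent.Lib.Helper76.BrRB.NN.{u} := by
  intro G _ _ p _ P hle hN
  haveI := Sylow.characteristic_of_normal (P.subtype hle) hN
  have h := ConjAct.normal_of_characteristic_of_normal
    (H := Subgroup.normalClosure ((P : Subgroup G) : Set G))
    (K := ((P.subtype hle : Sylow p _) : Subgroup _))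
  have h2 : (((P.subtype hle : Sylow p _) : Subgroup _)).map
      (Subgroup.normalClosure ((P : Subgroup G) : Set G)).subtype = (P : Subgroup G) := by
    rw [Sylow.coe_subtype]
    exact Subgroup.map_subgroupOf_eq_of_le hle
  rwa [h2] at h

end Cfsg.Agent.Lib.Helper2.BrRBNN
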