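import Mathlib
import Cfsg.Agent.Lib.Helper76.BrRBStmt
import Cfsg.Agent.Lib.CT.Orth
import Cfsg.Agent.Lib.CT.Ops

/-!
# S4504, part B, piece SUM: the weighted sum of the excesses over the nontrivial constituents
of `ξ * conj ξ` vanishes
-/

set_option autoImplicit false

namespace Cfsg.Agent.Lib.Helper2.BrRBSUM

open Cfsg Cfsg.Agent.Lib.Helper76.BrRB
open Cfsg.Agent.Lib.CT.Wedderburn Cfsg.Agent.Lib.CT.Orth Cfsg.Agent.Lib.CT.Ops
open scoped ComplexConjugate Classical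

universe u

theorem main : Cfsg.Agent.Lib.Helper76.BrRB.SUM.{u} := by
  intro L _ _ p _ c hΦ
  haveI := finite_irrCharacter L
  haveI := Fintype.ofFinite (IrrCharacter L)
  rw [finsum_eq_sum_of_fintype]
  obtain ⟨Φ, hΦdef⟩ : ∃ Φ : L → ℂ, Φ = fun g => c.ξ g * conj (c.ξ g) := ⟨_, rfl⟩
  rw [← hΦdef] at hΦ
  have hξc : IsCharacter L c.ξ := isCharacter_of_irr c.hξ
  have hξcf : IsClassFunction L c.ξ := char_isClassFunction hξc
  have hΦcf : IsClassFunction L Φ := by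
    intro g h
    rw [hΦdef]
    simp only [hξcf g h]
  have hcard : (Nat.card L : ℂ) ≠ 0 := Nat.cast_ne_zero.mpr Nat.card_pos.ne'
  have hmlt : ∀ ψ : L → ℂ, mlt c.ξ ψ = (Nat.card L : ℂ) * classInner Φ ψ := by
    intro ψ
    unfold mlt classInner
    rw [hΦdef, ← mul_assoc, mul_inv_cancel₀ hcard, one_mul]
  have hexp : ∀ g, Φ g = ∑ ψ : IrrCharacter L, classInner Φ (ψ : L → ℂ) * (ψ : L → ℂ) g :=
    classFunction_expand_sum Φ hΦcf
  -- the total sum
  have hsP : sP c.P Φ =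
      ∑ ψ : IrrCharacter L, classInner Φ (ψ : L → ℂ) * sP c.P (ψ : L → ℂ) := by
    unfold sP
    simp only [Finset.mul_sum]
    rw [Finset.sum_comm]
    refine Finset.sum_congr rfl fun u _ => ?_
    split_ifs with hu
    · exact hexp u
    · simp
  have htot : ∑ ψ : IrrCharacter L, mlt c.ξ (ψ : L → ℂ) *
      (2 * (p : ℂ) * (ψ : L → ℂ) 1 - ((p : ℂ) + 1) * sP c.P (ψ : L → ℂ)) =
      (Nat.card L : ℂ) * (2 * (p : ℂ) * Φ 1 - ((p : ℂ) + 1) * sP c.P Φ) := by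
    rw [hsP, hexp 1]
    simp only [hmlt, Finset.mul_sum, mul_sub, Finset.sum_sub_distrib]
    congr 1 <;> refine Finset.sum_congr rfl fun ψ _ => ?_ <;> ring
  -- the trivial character
  obtain ⟨ψ₀, hψ₀⟩ : ∃ ψ₀ : IrrCharacter L, (ψ₀ : L → ℂ) = fun _ => (1 : ℂ) :=
    ⟨⟨fun _ => (1 : ℂ), isIrrCharacter_one⟩, rfl⟩
  have hiff : ∀ ψ : IrrCharacter L, (∃ g, (ψ : L → ℂ) g ≠ 1) ↔ ψ ≠ ψ₀ := by
    intro ψ
    constructor
    · rintro ⟨g, hg⟩ h
      apply hg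
      rw [h, hψ₀]
    · intro h
      by_contra hno
      push Not at hno
      apply h
      apply Subtype.ext
      rw [hψ₀]
      funext g
      exact hno g
  have hsP1 : sP c.P (fun _ => (1 : ℂ)) = (p : ℂ) := by
    unfold sP
    rw [Finset.sum_boole]
    have h1 := Nat.subtype_card (Finset.univ.filter fun u : L => u ∈ (c.P : Subgroup L))
      (p := fun u : L => u ∈ (c.P : Subgroup L)) (by simp)
    have h2 : Nat.card (c.P : Subgroup L) = p := c.hP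
    have h3 : (Finset.univ.filter fun u : L => u ∈ (c.P : Subgroup L)).card = p := by
      rw [← h1]; exact h2
    rw [h3]
  have hmlt1 : mlt c.ξ (fun _ => (1 : ℂ)) = (Nat.card L : ℂ) := by
    have h1 := irr_orthonormal (⟨c.ξ, c.hξ⟩ : IrrCharacter L) ⟨c.ξ, c.hξ⟩
    rw [if_pos rfl] at h1
    unfold classInner at h1
    unfold mlt
    simp only [map_one, mul_one]
    have h2 : (∑ g : L, c.ξ g * conj (c.ξ g)) = (Nat.card L : ℂ) := by
      have := congrArg (fun z => (Nat.card L : ℂ) * z) h1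
      simp only [← mul_assoc, mul_inv_cancel₀ hcard, one_mul, mul_one] at this
      exact this
    exact h2
  have hsplit : ∀ ψ : IrrCharacter L,
      (if (∃ g, (ψ : L → ℂ) g ≠ 1) then
        mlt c.ξ (ψ : L → ℂ) *
          (2 * (p : ℂ) * (ψ : L → ℂ) 1 - ((p : ℂ) + 1) * sP c.P (ψ : L → ℂ)) else 0) =
      mlt c.ξ (ψ : L → ℂ) *
          (2 * (p : ℂ) * (ψ : L → ℂ) 1 - ((p : ℂ) + 1) * sP c.P (ψ : L → ℂ)) -
        (if ψ = ψ₀ then mlt c.ξ (ψ₀ : L → ℂ) *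
          (2 * (p : ℂ) * (ψ₀ : L → ℂ) 1 - ((p : ℂ) + 1) * sP c.P (ψ₀ : L → ℂ)) else 0) := by
    intro ψ
    by_cases h : ψ = ψ₀
    · have hn : ¬ (∃ g, (ψ : L → ℂ) g ≠ 1) := fun hh => (hiff ψ).1 hh h
      rw [if_neg hn, if_pos h, h, sub_self]
    · rw [if_pos ((hiff ψ).2 h), if_neg h, sub_zero]
  rw [Finset.sum_congr rfl fun ψ _ => hsplit ψ, Finset.sum_sub_distrib, htot,
    Finset.sum_ite_eq' Finset.univ ψ₀, if_pos (Finset.mem_univ _), hψ₀, hsP1, hmlt1, hΦ]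
  have he : (charDegree c.ξ : ℂ) = c.ξ 1 := char_natCast_charDegree hξc
  have hΦ1 : Φ 1 = (charDegree c.ξ : ℂ) * (charDegree c.ξ : ℂ) := by
    rw [hΦdef]
    simp only
    rw [← he, Complex.conj_natCast]
  have hp : (p : ℂ) = 2 * (charDegree c.ξ : ℂ) + 1 := by
    exact_mod_cast c.hdeg.symm
  rw [hΦ1, hp]
  ring

end Cfsg.Agent.Lib.Helper2.BrRBSUM
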