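import Mathlib
import Cfsg.Agent.Lib.Helper41.EMStmt
import Cfsg.Agent.Lib.Helper44.NegPairs
import Cfsg.Agent.Lib.Helper11.TPCANCEL

/-!
# S5990 / CANCEL (minus form): Witt cancellation of a plus-type summand.
Port of `Helper11.TPCANCEL.main` (its `cancel_gen` is form-free).
-/

set_option autoImplicit false

namespace Cfsg.Agent.Lib.Helper2.EMCANCEL

open Module QuadraticMap
open Cfsg.Agent.Lib.Helper44.NegPairs
open Cfsg.Agent.Lib.Helper41.EMStmt
open Cfsg.Agent.Lib.Helper45.OMiStmt (M Aniso FxM NDegM StabM)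
open Cfsg.Agent.Lib.Helper41.TMTwoStmt (PlusM)

universe u

theorem main : CancelM.{u} := by
  intro F _ _ a₀ b₀ _ d A B hA hB hAB hP hPA
  obtain ⟨U, hU, hUts, hUd⟩ := hP
  obtain ⟨TA, hTA, hTAts, hTAd⟩ := hPA
  have key := Cfsg.Agent.Lib.Helper11.TPCANCEL.cancel_gen (minusQ (d - 1) F a₀ b₀) A B
    (fun a ha h => by
      by_contra hne
      obtain ⟨⟨x, hx, hx'⟩, -⟩ := hA a ha hne
      exact hx' (h x hx))
    (fun b hb h => by
      by_contra hne
      obtain ⟨⟨x, hx, hx'⟩, -⟩ := hB b hb hne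
      exact hx' (h x hx))
    hAB U hU hUts hUd TA hTA hTAts hTAd
  obtain ⟨TB, hTB, hTBts, hTBd⟩ := key
  exact ⟨TB, hTB, hTBts, hTBd⟩

end Cfsg.Agent.Lib.Helper2.EMCANCEL
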