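import Mathlib
import Cfsg.Agent.Lib.Helper41.EMStmt
import Cfsg.Agent.Lib.Helper44.NegPairs
import Cfsg.Agent.Lib.Helper27.EPNEGSQFIXB1

/-!
# S5990 / NEGSQFIXB1 (minus form): `q ≡ 3 (mod 4)`, `x * x = -1`, an invariant nondegenerate `W`
with `4 ∣ dim W` is of plus type.  Port of `Helper27.EPNEGSQFIXB1.main` (its `build` is form-free).
-/

set_option autoImplicit false

namespace Cfsg.Agent.Lib.Helper2.EMNEGSQFIXB1

open Module QuadraticMap
open Cfsg.Agent.Lib.Helper44.NegPairs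
open Cfsg.Agent.Lib.Helper41.EMStmt
open Cfsg.Agent.Lib.Helper45.OMiStmt (M Aniso FxM NDegM StabM)
open Cfsg.Agent.Lib.Helper41.TMTwoStmt (PlusM)

universe u

theorem main : NegSqFixB1.{u} := by
  intro F _ _ a₀ b₀ _ hq d x hx hx2 W _ hStab hfin
  classical
  obtain ⟨A, hAdef⟩ : ∃ A : (M d → F) →ₗ[F] (M d → F),
      A = Matrix.toLin' (x : Matrix (M d) (M d) F) := ⟨_, rfl⟩
  have hAQ : ∀ u, minusQ (d - 1) F a₀ b₀ (A u) = minusQ (d - 1) F a₀ b₀ u := by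
    intro u
    rw [hAdef, Matrix.toLin'_apply]
    exact hx u u
  have hAA : ∀ u, A (A u) = -u := by
    intro u
    rw [hAdef, ← Matrix.toLin'_mul_apply, hx2, Matrix.toLin'_apply, Matrix.neg_mulVec,
      Matrix.one_mulVec]
  have hAW : ∀ w ∈ W, A w ∈ W := by
    intro w hw
    rw [hAdef]
    exact hStab (Submodule.mem_map_of_mem hw)
  obtain ⟨A', hA'⟩ : ∃ A' : ↥W →ₗ[F] ↥W,
      ∀ w : ↥W, ((A' w : ↥W) : M d → F) = A (w : M d → F) :=
    ⟨A.restrict hAW, fun w => rfl⟩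
  obtain ⟨Q', hQ'⟩ : ∃ Q' : QuadraticForm F ↥W,
      ∀ w : ↥W, Q' w = minusQ (d - 1) F a₀ b₀ (w : M d → F) :=
    ⟨(minusQ (d - 1) F a₀ b₀).comp W.subtype, fun w => rfl⟩
  have hAQ' : ∀ u, Q' (A' u) = Q' u := by
    intro u
    rw [hQ', hQ', hA', hAQ]
  have hAA' : ∀ u, A' (A' u) = -u := by
    intro u
    apply Subtype.ext
    rw [hA', hA', hAA]
    rfl
  obtain ⟨k, hk⟩ : ∃ k, finrank F ↥W = 4 * k := ⟨finrank F ↥W / 4, by omega⟩
  obtain ⟨T, hT1, hT2, hT3⟩ := Cfsg.Agent.Lib.Helper27.EPNEGSQFIXB1.build hq Q' A' hAQ' hAA' k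
    (by omega)
  show ∃ U : Submodule F (M d → F), U ≤ W ∧
    Cfsg.Agent.Lib.Helper41.TMTwoStmt.TSubM d F a₀ b₀ U ∧
      2 * Module.finrank F U = Module.finrank F W
  refine ⟨T.map W.subtype, Submodule.map_subtype_le W T, ?_, ?_⟩
  · intro w hw
    obtain ⟨t, ht, rfl⟩ := hw
    have h8 := hT2 t ht
    rw [hQ'] at h8
    exact h8
  · rw [Submodule.finrank_map_subtype_eq]
    omega

end Cfsg.Agent.Lib.Helper2.EMNEGSQFIXB1
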