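import Mathlib
import Cfsg.Prelude.Def_Solvable
import Cfsg.Agent.Lib.Helper67.BaerSuzuki

set_option autoImplicit false

universe u

namespace Cfsg.Agent.Lib.Helper2.InvLift

/-- Some nontrivial `q`-element of `G` is inverted by an element of `G`. -/
def Inv (q : ℕ) (G : Type*) [Group G] : Prop :=
  ∃ x : G, x ≠ 1 ∧ (∃ k : ℕ, x ^ q ^ k = 1) ∧ ∃ g : G, g * x * g⁻¹ = x⁻¹

theorem conj_pow' {G : Type*} [Group G] (g y : G) (n : ℕ) : (g * y * g⁻¹) ^ n = g * y ^ n * g⁻¹ := by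
  induction n with
  | zero => simp
  | succ n ih => rw [pow_succ, ih, pow_succ]; group

/-- Lifting an inversion through a normal `q'`-subgroup (element form). -/
theorem ef1 {G : Type*} [Group G] [Finite G] {q : ℕ} [hq : Fact q.Prime] (K : Subgroup G)
    [hKn : K.Normal] (hK : (Nat.card K).Coprime q) (y g : G) (k : ℕ) (hy : y ^ q ^ k = 1)
    (h : g * y * g⁻¹ * y ∈ K) :
    ∃ u ∈ K, (u * g) * y * (u * g)⁻¹ = y⁻¹ := by
  classical
  set w := g * y * g⁻¹ with hw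
  have hwk : w ^ q ^ k = 1 := by rw [hw, conj_pow', hy]; group
  have hyw : y * w ∈ K := by
    have := hKn.conj_mem _ h y
    have h2 : y * (w * y) * y⁻¹ = y * w := by group
    rw [← h2]; exact this
  have hstep : ∀ a : G, a ∈ K → y * a * w ∈ K := by
    intro a ha
    have h1 : y * a * w = (y * a * y⁻¹) * (y * w) := by group
    rw [h1]
    exact K.mul_mem (hKn.conj_mem _ ha y) hyw
  let f : Function.End K := fun a => ⟨y * a * w, hstep a a.2⟩
  have hf : ∀ (j : ℕ) (a : K), (((f ^ j) a : K) : G) = y ^ j * a * w ^ j := by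
    intro j
    induction j with
    | zero =>
      intro a
      have h0 : (f ^ 0) a = a := by rw [pow_zero]; rfl
      rw [h0]; simp
    | succ j ih =>
      intro a
      have h1 : (f ^ (j + 1)) a = f ((f ^ j) a) := by
        rw [pow_succ']; rfl
      rw [h1]
      show y * ((f ^ j) a : K) * w = _
      rw [ih, pow_succ', pow_succ]; group
  have hfk : f ^ q ^ k = 1 := by
    funext a
    apply Subtype.ext
    rw [hf, hy, hwk]
    have h1 : ((1 : Function.End K) a) = a := rfl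
    rw [h1]; simp
  haveI : Fintype K := Fintype.ofFinite K
  have hmod := Equiv.Perm.card_fixedPoints_modEq (p := q) (n := k) hfk
  have hne : Fintype.card (Function.fixedPoints f) ≠ 0 := by
    intro h0
    rw [h0] at hmod
    have h1 : q ∣ Fintype.card K := (Nat.modEq_zero_iff_dvd.mp hmod)
    rw [← Nat.card_eq_fintype_card] at h1
    have h2 : q ∣ Nat.gcd (Nat.card K) q := Nat.dvd_gcd h1 dvd_rfl
    rw [hK] at h2
    exact hq.out.one_lt.ne' (Nat.dvd_one.mp h2)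
  obtain ⟨⟨a, ha⟩⟩ := Fintype.card_pos_iff.mp (Nat.pos_of_ne_zero hne)
  have ha' : y * (a : G) * w = a := congrArg Subtype.val ha
  refine ⟨a, a.2, ?_⟩
  have h3 : (a : G) * g * y * ((a : G) * g)⁻¹ = (a : G) * w * (a : G)⁻¹ := by rw [hw]; group
  rw [h3]
  have h4 : (a : G) * w * (a : G)⁻¹ = y⁻¹ * (y * (a : G) * w) * (a : G)⁻¹ := by group
  rw [h4, ha']; group

theorem conj_sq_of_inv {G : Type*} [Group G] {g x : G} (h : g * x * g⁻¹ = x⁻¹) :
    g ^ 2 * x * (g ^ 2)⁻¹ = x := by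
  have h1 : g ^ 2 * x * (g ^ 2)⁻¹ = g * (g * x * g⁻¹) * g⁻¹ := by rw [pow_two]; group
  rw [h1, h]
  have h2 : g * x⁻¹ * g⁻¹ = (g * x * g⁻¹)⁻¹ := by group
  rw [h2, h, inv_inv]

theorem conj_pow_fix {G : Type*} [Group G] {b x : G} (h : b * x * b⁻¹ = x) (i : ℕ) :
    b ^ i * x * (b ^ i)⁻¹ = x := by
  induction i with
  | zero => simp
  | succ i ih =>
    have h1 : b ^ (i + 1) * x * (b ^ (i + 1))⁻¹ = b * (b ^ i * x * (b ^ i)⁻¹) * b⁻¹ := by
      rw [pow_succ']; group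
    rw [h1, ih, h]

theorem conj_pow_odd {G : Type*} [Group G] {g x : G} (h : g * x * g⁻¹ = x⁻¹) {m : ℕ}
    (hm : Odd m) : g ^ m * x * (g ^ m)⁻¹ = x⁻¹ := by
  obtain ⟨i, rfl⟩ := hm
  have h1 : g ^ (2 * i + 1) * x * (g ^ (2 * i + 1))⁻¹
      = (g ^ 2) ^ i * (g * x * g⁻¹) * ((g ^ 2) ^ i)⁻¹ := by
    rw [pow_succ, pow_mul]; group
  rw [h1, h]
  have h2 : (g ^ 2) ^ i * x⁻¹ * ((g ^ 2) ^ i)⁻¹ = ((g ^ 2) ^ i * x * ((g ^ 2) ^ i)⁻¹)⁻¹ := by
    group
  rw [h2, conj_pow_fix (conj_sq_of_inv h)]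

/-- Lifting an inversion through a normal `q`-subgroup (`q` odd), element form. -/
theorem ef2 {G : Type*} [Group G] [Finite G] {q : ℕ} [hq : Fact q.Prime] (hq2 : q ≠ 2)
    (Q : Subgroup G) [hQn : Q.Normal] (hQ : IsPGroup q Q) (y g : G) (k : ℕ)
    (hy : y ^ q ^ k = 1) (hyQ : y ∉ Q) (h : g * y * g⁻¹ * y ∈ Q) : Inv q G := by
  classical
  have hqodd : Odd q := hq.out.odd_of_ne_two hq2
  -- pass to the quotient
  let π := QuotientGroup.mk' Q
  have hπ : ∀ a : G, π a = 1 ↔ a ∈ Q := fun a => QuotientGroup.eq_one_iff a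
  have hinv : π g * π y * (π g)⁻¹ = (π y)⁻¹ := by
    have h1 : π (g * y * g⁻¹ * y) = 1 := (hπ _).mpr h
    rw [map_mul, map_mul, map_mul, map_inv] at h1
    exact eq_inv_of_mul_eq_one_left h1
  -- replace `g` by a `2`-element
  have ho : orderOf g ≠ 0 := (orderOf_pos g).ne'
  obtain ⟨e, m, hm, hom⟩ := Nat.exists_eq_two_pow_mul_odd ho
  set g' := g ^ m with hg'
  have hg'e : g' ^ 2 ^ e = 1 := by
    rw [hg', ← pow_mul, mul_comm, ← hom, pow_orderOf_eq_one]
  have hinv' : π g' * π y * (π g')⁻¹ = (π y)⁻¹ := by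
    rw [hg', map_pow]; exact conj_pow_odd hinv hm
  set b := g' ^ 2 with hb
  have hbe : b ^ 2 ^ e = 1 := by
    rw [hb, ← pow_mul, mul_comm, pow_mul, hg'e, one_pow]
  have hbfix : π b * π y * (π b)⁻¹ = π y := by
    rw [hb, map_pow]; exact conj_sq_of_inv hinv'
  have hbQ : y⁻¹ * b * y * b⁻¹ ∈ Q := by
    rw [← hπ]
    rw [map_mul, map_mul, map_mul, map_inv, map_inv]
    have h2 : (π y)⁻¹ * π b * π y * (π b)⁻¹ = (π y)⁻¹ * (π b * π y * (π b)⁻¹) := by group
    rw [h2, hbfix, inv_mul_cancel]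
  have hstep : ∀ a : G, a ∈ Q → y⁻¹ * b * (y * a) * b⁻¹ ∈ Q := by
    intro a ha
    have h1 : y⁻¹ * b * (y * a) * b⁻¹ = (y⁻¹ * b * y * b⁻¹) * (b * a * b⁻¹) := by group
    rw [h1]
    exact Q.mul_mem hbQ (hQn.conj_mem _ ha b)
  let f : Function.End Q := fun a => ⟨y⁻¹ * b * (y * a) * b⁻¹, hstep a a.2⟩
  have hf : ∀ (j : ℕ) (a : Q), (((f ^ j) a : Q) : G) = y⁻¹ * b ^ j * (y * a) * (b ^ j)⁻¹ := by
    intro j
    induction j with
    | zero =>
      intro a
      have h0 : (f ^ 0) a = a := by rw [pow_zero]; rfl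
      rw [h0]; simp
    | succ j ih =>
      intro a
      have h1 : (f ^ (j + 1)) a = f ((f ^ j) a) := by
        rw [pow_succ']; rfl
      rw [h1]
      show y⁻¹ * b * (y * ((f ^ j) a : Q)) * b⁻¹ = _
      rw [ih, pow_succ']; group
  have hfk : f ^ 2 ^ e = 1 := by
    funext a
    apply Subtype.ext
    rw [hf, hbe]
    have h1 : ((1 : Function.End Q) a) = a := rfl
    rw [h1]; simp
  haveI : Fintype Q := Fintype.ofFinite Q
  have hmod := Equiv.Perm.card_fixedPoints_modEq (p := 2) (n := e) hfk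
  have hcardodd : Odd (Fintype.card Q) := by
    rw [← Nat.card_eq_fintype_card]
    obtain ⟨n, hn⟩ := IsPGroup.iff_card.mp hQ
    rw [hn]; exact hqodd.pow
  have hne : Fintype.card (Function.fixedPoints f) ≠ 0 := by
    intro h0
    rw [h0] at hmod
    have h1 : 2 ∣ Fintype.card Q := (Nat.modEq_zero_iff_dvd.mp hmod)
    exact (Nat.not_even_iff_odd.mpr hcardodd) (even_iff_two_dvd.mpr h1)
  obtain ⟨⟨a, ha⟩⟩ := Fintype.card_pos_iff.mp (Nat.pos_of_ne_zero hne)
  have ha' : y⁻¹ * b * (y * (a : G)) * b⁻¹ = a := congrArg Subtype.val ha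
  set y₁ := y * (a : G) with hy₁
  have hy₁fix : b * y₁ * b⁻¹ = y₁ := by
    have h1 : b * y₁ * b⁻¹ = y * (y⁻¹ * b * y₁ * b⁻¹) := by group
    rw [h1, ha']
  have hπy₁ : π y₁ = π y := by
    rw [hy₁, map_mul, (hπ (a : G)).mpr a.2, mul_one]
  set y' := y₁ * g' * y₁⁻¹ * g'⁻¹ with hy'
  have hconj : g' * y' * g'⁻¹ = y'⁻¹ := by
    have h1 : g' * y' * g'⁻¹ = (g' * y₁ * g'⁻¹) * (b * y₁ * b⁻¹)⁻¹ := by
      rw [hy', hb, pow_two]; group
    rw [h1, hy₁fix, hy']; group
  have hπy' : π y' = π y ^ 2 := by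
    rw [hy', map_mul, map_mul, map_mul, map_inv, map_inv, hπy₁]
    have h1 : π y * π g' * (π y)⁻¹ * (π g')⁻¹ = π y * (π g' * π y * (π g')⁻¹)⁻¹ := by group
    rw [h1, hinv', inv_inv, pow_two]
  have hy'1 : y' ≠ 1 := by
    intro h1
    rw [h1, map_one] at hπy'
    -- `π y` has order dividing `2` and `q ^ k`
    have h2 : orderOf (π y) ∣ 2 := orderOf_dvd_of_pow_eq_one hπy'.symm
    have h3 : orderOf (π y) ∣ q ^ k := orderOf_dvd_of_pow_eq_one (by rw [← map_pow, hy, map_one])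
    have h4 : Nat.Coprime 2 (q ^ k) := by
      apply Nat.Coprime.pow_right
      rw [Nat.coprime_primes Nat.prime_two hq.out]
      exact fun h => hq2 h.symm
    have h5 : orderOf (π y) = 1 := Nat.eq_one_of_dvd_coprimes h4 h2 h3
    rw [orderOf_eq_one_iff] at h5
    exact hyQ ((hπ y).mp h5)
  have hy'q : ∃ j : ℕ, y' ^ q ^ j = 1 := by
    have h1 : y' ^ q ^ k ∈ Q := by
      rw [← hπ, map_pow, hπy', ← pow_mul, mul_comm, pow_mul, ← map_pow, hy, map_one, one_pow]
    obtain ⟨l, hl⟩ := hQ ⟨_, h1⟩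
    refine ⟨k + l, ?_⟩
    have h2 : (y' ^ q ^ k) ^ q ^ l = 1 := congrArg Subtype.val hl
    rw [pow_add, pow_mul, h2]
  exact ⟨y', hy'1, hy'q, g', hconj⟩

/-- Inversions lift through a normal `q`-subgroup, `q` odd. -/
theorem inv_of_quot_pgroup {G : Type*} [Group G] [Finite G] {q : ℕ} [hq : Fact q.Prime]
    (hq2 : q ≠ 2) (Q : Subgroup G) [hQn : Q.Normal] (hQ : IsPGroup q Q) (h : Inv q (G ⧸ Q)) :
    Inv q G := by
  obtain ⟨x, hx1, ⟨k, hk⟩, g, hg⟩ := h
  induction x using QuotientGroup.induction_on with | H x => ?_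
  induction g using QuotientGroup.induction_on with | H g => ?_
  have hxQ : x ∉ Q := fun hx => hx1 ((QuotientGroup.eq_one_iff x).mpr hx)
  have h1 : x ^ q ^ k ∈ Q := by
    rw [← QuotientGroup.eq_one_iff]; exact hk
  obtain ⟨l, hl⟩ := hQ ⟨_, h1⟩
  have h2 : (x ^ q ^ k) ^ q ^ l = 1 := congrArg Subtype.val hl
  have h3 : x ^ q ^ (k + l) = 1 := by rw [pow_add, pow_mul, h2]
  have h4 : g * x * g⁻¹ * x ∈ Q := by
    rw [← QuotientGroup.eq_one_iff]
    have : ((g * x * g⁻¹ * x : G) : G ⧸ Q) = ((g : G ⧸ Q) * x * (g : G ⧸ Q)⁻¹) * x := rfl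
    rw [this, hg, inv_mul_cancel]
  exact ef2 hq2 Q hQ x g (k + l) h3 hxQ h4

/-- Inversions lift through a normal `q'`-subgroup. -/
theorem inv_of_quot_coprime {G : Type*} [Group G] [Finite G] {q : ℕ} [hq : Fact q.Prime]
    (K : Subgroup G) [hKn : K.Normal] (hK : (Nat.card K).Coprime q) (h : Inv q (G ⧸ K)) :
    Inv q G := by
  obtain ⟨x, hx1, ⟨k, hk⟩, g, hg⟩ := h
  induction x using QuotientGroup.induction_on with | H x => ?_
  induction g using QuotientGroup.induction_on with | H g => ?_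
  have hk0 : k ≠ 0 := by
    rintro rfl
    rw [pow_zero, pow_one] at hk
    exact hx1 hk
  have hqk : 1 < q ^ k := Nat.one_lt_pow hk0 hq.out.one_lt
  have hcop : Nat.Coprime (Nat.card K) (q ^ k) := Nat.Coprime.pow_right k hK
  obtain ⟨m', -, hm'⟩ := Nat.exists_mul_mod_eq_one_of_coprime hcop hqk
  have h1 : x ^ q ^ k ∈ K := by
    rw [← QuotientGroup.eq_one_iff]; exact hk
  have h2 : (x ^ q ^ k) ^ Nat.card K = 1 := by
    have := pow_card_eq_one' (G := K) (x := ⟨_, h1⟩)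
    exact congrArg Subtype.val this
  set y := x ^ (Nat.card K * m') with hy
  have hyq : y ^ q ^ k = 1 := by
    rw [hy, ← pow_mul, mul_comm (Nat.card K * m'), ← mul_assoc, pow_mul, pow_mul, h2,
      one_pow]
  have hπy : ((y : G) : G ⧸ K) = (x : G ⧸ K) := by
    rw [hy, QuotientGroup.mk_pow, pow_eq_pow_mod _ hk, hm', pow_one]
  have hy1 : y ≠ 1 := by
    intro h
    rw [h] at hπy
    exact hx1 hπy.symm
  have h4 : g * y * g⁻¹ * y ∈ K := by
    rw [← QuotientGroup.eq_one_iff]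
    have : ((g * y * g⁻¹ * y : G) : G ⧸ K) = ((g : G ⧸ K) * y * (g : G ⧸ K)⁻¹) * y := rfl
    rw [this, hπy, hg, inv_mul_cancel]
  obtain ⟨u, -, hu⟩ := ef1 K hK y g k hyq h4
  exact ⟨y, hy1, ⟨k, hyq⟩, u * g, hu⟩

/-! ### `2`-closed groups -/

/-- `G` has a normal Sylow `2`-subgroup. -/
def TC (G : Type*) [Group G] : Prop :=
  ∃ S : Subgroup G, S.Normal ∧ IsPGroup 2 S ∧ Odd S.index

theorem tc_iff {G : Type*} [Group G] [Finite G] :
    TC G ↔ ∀ P : Sylow 2 G, (P : Subgroup G).Normal := by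
  constructor
  · rintro ⟨S, hSn, hS2, hSi⟩ P
    haveI := hSn
    have h1 : S ≤ P := IsPGroup.le_sylow_of_normal hS2 P
    have h2 : S.relIndex P * (P : Subgroup G).index = S.index := Subgroup.relIndex_mul_index h1
    have h3 : Odd (S.relIndex P) := by
      rw [← h2] at hSi; exact (Nat.odd_mul.mp hSi).1
    have h4 : S.relIndex P ∣ Nat.card P := Subgroup.index_dvd_card _
    obtain ⟨n, hn⟩ := IsPGroup.iff_card.mp P.isPGroup'
    rw [hn] at h4
    obtain ⟨j, -, hj⟩ := (Nat.dvd_prime_pow Nat.prime_two).mp h4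
    have hj0 : j = 0 := by
      by_contra hne
      rw [hj] at h3
      exact (Nat.not_even_iff_odd.mpr h3) ((Nat.even_pow).mpr ⟨even_two, hne⟩)
    rw [hj0, pow_zero] at hj
    have h5 : (P : Subgroup G) ≤ S := Subgroup.relIndex_eq_one.mp hj
    have : (P : Subgroup G) = S := le_antisymm h5 h1
    rw [this]; exact hSn
  · intro h
    obtain ⟨P⟩ : Nonempty (Sylow 2 G) := inferInstance
    refine ⟨P, h P, P.isPGroup', ?_⟩
    exact Nat.not_even_iff_odd.mp (fun he => P.not_dvd_index (even_iff_two_dvd.mp he))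

theorem not_inv_of_tc {G : Type*} [Group G] [Finite G] {q : ℕ} [hq : Fact q.Prime] (hq2 : q ≠ 2)
    (h : TC G) : ¬ Inv q G := by
  rintro ⟨x, hx1, ⟨k, hk⟩, g, hg⟩
  obtain ⟨S, hSn, hS2, hSi⟩ := h
  haveI := hSn
  apply hx1
  have hs : g ^ S.index ∈ S := S.pow_index_mem g
  have hc := conj_pow_odd hg hSi
  have h1 : (x ^ 2)⁻¹ ∈ S := by
    have h2 : (x ^ 2)⁻¹ = (g ^ S.index * x * (g ^ S.index)⁻¹ * x⁻¹) := by rw [hc]; group
    have h3 : g ^ S.index * x * (g ^ S.index)⁻¹ * x⁻¹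
        = g ^ S.index * (x * (g ^ S.index)⁻¹ * x⁻¹) := by group
    rw [h2, h3]
    exact S.mul_mem hs (hSn.conj_mem _ (S.inv_mem hs) x)
  have h4 : x ^ 2 ∈ S := by simpa using S.inv_mem h1
  obtain ⟨j, hj⟩ := hS2 ⟨_, h4⟩
  have h5 : (x ^ 2) ^ 2 ^ j = 1 := congrArg Subtype.val hj
  have h6 : orderOf x ∣ 2 ^ (j + 1) :=
    orderOf_dvd_of_pow_eq_one (by rw [pow_succ', pow_mul]; exact h5)
  have h7 : orderOf x ∣ q ^ k := orderOf_dvd_of_pow_eq_one hk
  have h8 : Nat.Coprime (2 ^ (j + 1)) (q ^ k) := by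
    apply Nat.Coprime.pow
    rw [Nat.coprime_primes Nat.prime_two hq.out]
    exact fun h => hq2 h.symm
  have h9 : orderOf x = 1 := Nat.eq_one_of_dvd_coprimes h8 h6 h7
  exact orderOf_eq_one_iff.mp h9

theorem pCore_normal (p : ℕ) (G : Type*) [Group G] : (Cfsg.pCore p G).Normal :=
  Subgroup.sSup_normal _ (fun _ h => h.1)

theorem pCore_isPGroup (p : ℕ) [Fact p.Prime] (G : Type*) [Group G] [Finite G] :
    IsPGroup p (Cfsg.pCore p G) := by
  obtain ⟨P⟩ : Nonempty (Sylow p G) := inferInstance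
  refine P.isPGroup'.to_le (sSup_le ?_)
  rintro N ⟨hN1, hN2⟩
  haveI := hN1
  exact IsPGroup.le_sylow_of_normal hN2 P

theorem le_pCore {p : ℕ} {G : Type*} [Group G] {N : Subgroup G} (hN : N.Normal)
    (hp : IsPGroup p N) : N ≤ Cfsg.pCore p G := le_sSup ⟨hN, hp⟩

/-- In a finite group, `g` normalizes `H` as soon as `g H g⁻¹ ⊆ H`. -/
theorem mem_normalizer_of_conj_mem {G : Type*} [Group G] [Finite G] (H : Subgroup G) (g : G)
    (h : ∀ a ∈ H, g * a * g⁻¹ ∈ H) : g ∈ Subgroup.normalizer (H : Set G) := by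
  rw [Subgroup.mem_normalizer_iff]
  intro n
  refine ⟨h n, fun hn => ?_⟩
  let f : H → H := fun a => ⟨g * a * g⁻¹, h a a.2⟩
  have hinj : Function.Injective f := by
    intro a b hab
    have h1 : g * (a : G) * g⁻¹ = g * (b : G) * g⁻¹ := congrArg Subtype.val hab
    apply Subtype.ext
    simpa using h1
  obtain ⟨a, ha⟩ := (Finite.injective_iff_surjective.mp hinj) ⟨_, hn⟩
  have h1 : g * (a : G) * g⁻¹ = g * n * g⁻¹ := congrArg Subtype.val ha
  have h2 : (a : G) = n := by simpa using h1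
  rw [← h2]; exact a.2

theorem isPGroup_zpowers {G : Type*} [Group G] {p : ℕ} {d : G} {j : ℕ} (h : d ^ p ^ j = 1) :
    IsPGroup p (Subgroup.zpowers d) := by
  rintro ⟨g, hg⟩
  obtain ⟨i, rfl⟩ := Subgroup.mem_zpowers_iff.mp hg
  refine ⟨j, Subtype.ext ?_⟩
  show (d ^ i) ^ p ^ j = 1
  rw [← zpow_natCast, ← zpow_mul, mul_comm, zpow_mul, zpow_natCast, h, one_zpow]

/-- **Lemma A**: a finite group without a normal Sylow `2`-subgroup has an inverted nontrivial
element of odd prime order. -/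
theorem exists_inv_of_not_tc : ∀ (n : ℕ) (G : Type u) [Group G] [Finite G], Nat.card G = n →
    ¬ TC G → ∃ r : ℕ, r.Prime ∧ r ≠ 2 ∧ Inv r G := by
  intro n
  induction n using Nat.strong_induction_on with
  | _ n ih =>
  intro G _ _ hcard hntc
  by_cases hcase : ∀ t : G, t ^ 2 = 1 → t ∈ Cfsg.pCore 2 G
  · have heven : 2 ∣ Nat.card G := by
      by_contra hodd
      apply hntc
      refine ⟨⊥, inferInstance, IsPGroup.of_bot, ?_⟩
      rw [Subgroup.index_bot]
      exact Nat.not_even_iff_odd.mp (fun he => hodd (even_iff_two_dvd.mp he))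
    obtain ⟨t, ht⟩ := exists_prime_orderOf_dvd_card' 2 heven
    have ht1 : t ≠ 1 := by
      intro h
      rw [h, orderOf_one] at ht
      omega
    have ht2 : t ^ 2 = 1 := by rw [← ht]; exact pow_orderOf_eq_one t
    have htO := hcase t ht2
    haveI hOn : (Cfsg.pCore 2 G).Normal := pCore_normal 2 G
    have hO2 : IsPGroup 2 (Cfsg.pCore 2 G) := pCore_isPGroup 2 G
    have hOne : Cfsg.pCore 2 G ≠ ⊥ := fun h => ht1 (by rw [h] at htO; exact Subgroup.mem_bot.mp htO)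
    have hlt : Nat.card (G ⧸ Cfsg.pCore 2 G) < n := by
      rw [← hcard, Subgroup.card_eq_card_quotient_mul_card_subgroup (Cfsg.pCore 2 G)]
      have h1 : 1 < Nat.card (Cfsg.pCore 2 G) := by
        rw [Subgroup.one_lt_card_iff_ne_bot]; exact hOne
      have h2 : 0 < Nat.card (G ⧸ Cfsg.pCore 2 G) := Nat.card_pos
      nlinarith
    have hntc' : ¬ TC (G ⧸ Cfsg.pCore 2 G) := by
      rintro ⟨S, hSn, hS2, hSi⟩
      apply hntc
      refine ⟨S.comap (QuotientGroup.mk' (Cfsg.pCore 2 G)), hSn.comap _, ?_, ?_⟩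
      · rintro ⟨s, hs⟩
        obtain ⟨j, hj⟩ := hS2 ⟨QuotientGroup.mk' (Cfsg.pCore 2 G) s, hs⟩
        have h1 : (QuotientGroup.mk' (Cfsg.pCore 2 G) s) ^ 2 ^ j = 1 := congrArg Subtype.val hj
        have h2 : s ^ 2 ^ j ∈ Cfsg.pCore 2 G := by
          rw [← QuotientGroup.eq_one_iff]; exact h1
        obtain ⟨l, hl⟩ := hO2 ⟨_, h2⟩
        refine ⟨j + l, Subtype.ext ?_⟩
        have h3 : (s ^ 2 ^ j) ^ 2 ^ l = 1 := congrArg Subtype.val hl
        show s ^ 2 ^ (j + l) = 1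
        rw [pow_add, pow_mul, h3]
      · rw [Subgroup.index_comap_of_surjective _ (QuotientGroup.mk'_surjective _)]; exact hSi
    obtain ⟨r, hr, hr2, hinv⟩ := ih _ hlt (G ⧸ Cfsg.pCore 2 G) rfl hntc'
    haveI : Fact r.Prime := ⟨hr⟩
    refine ⟨r, hr, hr2, inv_of_quot_coprime (Cfsg.pCore 2 G) ?_ hinv⟩
    obtain ⟨m, hm⟩ := IsPGroup.iff_card.mp hO2
    rw [hm]
    exact Nat.Coprime.pow_left m ((Nat.coprime_primes Nat.prime_two hr).mpr (Ne.symm hr2))
  · push Not at hcase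
    obtain ⟨t, ht2, htO⟩ := hcase
    let K : Set G := Group.conjugatesOfSet {t}
    have hK : ∀ (g y : G), y ∈ K → g * y * g⁻¹ ∈ K := fun g y hy =>
      Group.conj_mem_conjugatesOfSet hy
    have hKmem : ∀ y ∈ K, ∃ g : G, g * t * g⁻¹ = y := by
      intro y hy
      rw [Group.mem_conjugatesOfSet_iff] at hy
      obtain ⟨a', ha', hc⟩ := hy
      rw [Set.mem_singleton_iff] at ha'
      subst ha'
      exact isConj_iff.mp hc
    have hpair : ¬ ∀ y₁ ∈ K, ∀ y₂ ∈ K, IsPGroup 2 (Subgroup.closure ({y₁, y₂} : Set G)) := by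
      intro hall
      have h1 : IsPGroup 2 (Subgroup.closure K) :=
        Cfsg.Agent.Lib.Helper67.BaerSuzuki.isPGroup_closure K hK hall
      have h2 : (Subgroup.closure K).Normal := by
        show (Subgroup.normalClosure ({t} : Set G)).Normal
        exact Subgroup.normalClosure_normal
      have h4 : t ∈ Subgroup.closure K :=
        Subgroup.subset_closure (Group.subset_conjugatesOfSet (Set.mem_singleton t))
      exact htO (le_pCore h2 h1 h4)
    push Not at hpair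
    obtain ⟨y₁, hy₁, y₂, hy₂, hnp⟩ := hpair
    have hsq : ∀ y ∈ K, y ^ 2 = 1 := by
      intro y hy
      obtain ⟨g, rfl⟩ := hKmem y hy
      rw [conj_pow', ht2]; group
    have hy₁2 := hsq y₁ hy₁
    have hy₂2 := hsq y₂ hy₂
    have hy₁i : y₁⁻¹ = y₁ := by
      rw [inv_eq_iff_mul_eq_one, ← pow_two]; exact hy₁2
    have hy₂i : y₂⁻¹ = y₂ := by
      rw [inv_eq_iff_mul_eq_one, ← pow_two]; exact hy₂2
    set d := y₁ * y₂ with hd
    have hdinv : y₁ * d * y₁⁻¹ = d⁻¹ := by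
      have h1 : d⁻¹ = y₂⁻¹ * y₁⁻¹ := by rw [hd]; group
      rw [h1, hy₂i, hy₁i, hd]
      have h2 : y₁ * (y₁ * y₂) * y₁ = y₁ ^ 2 * y₂ * y₁ := by rw [pow_two]; group
      rw [h2, hy₁2, one_mul]
    have hd2 : ∀ j : ℕ, d ^ 2 ^ j ≠ 1 := by
      intro j hj
      apply hnp
      have hA : IsPGroup 2 (Subgroup.zpowers y₁) := isPGroup_zpowers (j := 1) (by simpa using hy₁2)
      have hB : IsPGroup 2 (Subgroup.zpowers d) := isPGroup_zpowers hj
      have hAB : Subgroup.zpowers y₁ ≤ Subgroup.normalizer (Subgroup.zpowers d : Set G) := by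
        rw [Subgroup.zpowers_le]
        apply mem_normalizer_of_conj_mem
        intro a ha
        obtain ⟨i, rfl⟩ := Subgroup.mem_zpowers_iff.mp ha
        have h1 : y₁ * d ^ i * y₁⁻¹ = (y₁ * d * y₁⁻¹) ^ i := by
          rw [← MulAut.conj_apply, ← MulAut.conj_apply, map_zpow]
        rw [h1, hdinv]
        exact Subgroup.zpow_mem _ (Subgroup.inv_mem _ (Subgroup.mem_zpowers d)) i
      have hsup := IsPGroup.to_sup_of_normal_right' hA hB hAB
      refine hsup.to_le ?_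
      rw [Subgroup.closure_le]
      rintro x (rfl | rfl)
      · exact (le_sup_left : Subgroup.zpowers x ≤ _) (Subgroup.mem_zpowers x)
      · have h1 : x = y₁⁻¹ * d := by rw [hd]; group
        rw [h1]
        exact Subgroup.mul_mem _
          ((le_sup_left : Subgroup.zpowers y₁ ≤ _) (Subgroup.inv_mem _ (Subgroup.mem_zpowers y₁)))
          ((le_sup_right : Subgroup.zpowers d ≤ _) (Subgroup.mem_zpowers d))
    have ho : orderOf d ≠ 0 := (orderOf_pos d).ne'
    obtain ⟨e, m, hm, hom⟩ := Nat.exists_eq_two_pow_mul_odd ho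
    set c := d ^ 2 ^ e with hc
    have hc1 : c ≠ 1 := hd2 e
    have hcm : c ^ m = 1 := by rw [hc, ← pow_mul, ← hom, pow_orderOf_eq_one]
    have hcinv : y₁ * c * y₁⁻¹ = c⁻¹ := by
      rw [hc, ← conj_pow', hdinv, inv_pow]
    have hoc : orderOf c ∣ m := orderOf_dvd_of_pow_eq_one hcm
    have hoc1 : orderOf c ≠ 1 := fun h => hc1 (orderOf_eq_one_iff.mp h)
    have hoc0 : orderOf c ≠ 0 := (orderOf_pos c).ne'
    have hr : (orderOf c).minFac.Prime := Nat.minFac_prime hoc1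
    have hrd : (orderOf c).minFac ∣ orderOf c := Nat.minFac_dvd _
    have hr2 : (orderOf c).minFac ≠ 2 := by
      intro h
      have h1 : 2 ∣ m := h ▸ (hrd.trans hoc)
      exact (Nat.not_even_iff_odd.mpr hm) (even_iff_two_dvd.mpr h1)
    have hord := orderOf_pow_orderOf_div hoc0 hrd
    refine ⟨(orderOf c).minFac, hr, hr2, c ^ (orderOf c / (orderOf c).minFac), ?_, ⟨1, ?_⟩, y₁, ?_⟩
    · intro h
      rw [h, orderOf_one] at hord
      exact hr.one_lt.ne hord
    · rw [pow_one]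
      have h1 := pow_orderOf_eq_one (c ^ (orderOf c / (orderOf c).minFac))
      rw [hord] at h1
      exact h1
    · rw [← conj_pow', hcinv, inv_pow]

end Cfsg.Agent.Lib.Helper2.InvLift
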