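import Mathlib
import Cfsg.Agent.Lib.Helper27.JzStmt

/-!
Piece SISO of S5403: the centraliser of the image of the involution in the quotient by the
central subgroup, modulo the image of `Q`, is the image of the homomorphism.
-/

set_option autoImplicit false

namespace Cfsg.Agent.Lib.Helper2.JzSISO

open Cfsg.Agent.Lib.Helper27.JzStmt

theorem main : SIso := by
  intro M _ _ Z0 _ t Q X _ ctx ψ hsurjψ hkerψ hN
  classical
  have htinv : t⁻¹ = t := inv_eq_of_mul_eq_one_left ctx.t_sq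
  -- the map from the centraliser
  have hmem : ∀ g : ↥(Subgroup.centralizer ({t} : Set M)),
      ((QuotientGroup.mk' Z0).comp (Subgroup.subtype _)) g ∈ Cb M Z0 t := by
    intro g
    rw [Subgroup.mem_centralizer_iff]
    intro h hh
    rw [Set.mem_singleton_iff] at hh
    subst hh
    have hg := Subgroup.mem_centralizer_iff.1 g.2 t (Set.mem_singleton t)
    show QuotientGroup.mk' Z0 t * QuotientGroup.mk' Z0 (g : M)
      = QuotientGroup.mk' Z0 (g : M) * QuotientGroup.mk' Z0 t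
    rw [← map_mul, ← map_mul, hg]
  let ψ0 : ↥(Subgroup.centralizer ({t} : Set M)) →* ↥(Cb M Z0 t) :=
    ((QuotientGroup.mk' Z0).comp (Subgroup.subtype _)).codRestrict (Cb M Z0 t) hmem
  let Ψ : ↥(Subgroup.centralizer ({t} : Set M)) →* ↥(Cb M Z0 t) ⧸ Qb M Z0 t Q :=
    (QuotientGroup.mk' (Qb M Z0 t Q)).comp ψ0
  have hsurj : Function.Surjective Ψ := by
    intro y
    obtain ⟨x, rfl⟩ := QuotientGroup.mk_surjective y
    obtain ⟨xb, hxb⟩ := x
    obtain ⟨g, rfl⟩ := QuotientGroup.mk_surjective xb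
    have h1 := Subgroup.mem_centralizer_iff.1 hxb (zb M Z0 t) (Set.mem_singleton _)
    have h2 : QuotientGroup.mk' Z0 (t * g) = QuotientGroup.mk' Z0 (g * t) := by
      rw [map_mul, map_mul]; exact h1
    have h3 : (t * g)⁻¹ * (g * t) ∈ Z0 :=
      (QuotientGroup.eq (s := Z0) (a := t * g) (b := g * t)).1 h2
    have h4 : g⁻¹ * t * g⁻¹⁻¹ * t⁻¹ ∈ Z0 := by
      have e1 : g⁻¹ * t * g⁻¹⁻¹ * t⁻¹ = (t * g)⁻¹ * (g * t) := by
        rw [inv_inv, htinv, mul_inv_rev, htinv]; group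
      rw [e1]; exact h3
    have h5 := ctx.nofus g⁻¹ h4
    have hg : g ∈ Subgroup.centralizer ({t} : Set M) := by
      rw [Subgroup.mem_centralizer_iff]
      intro h hh
      rw [Set.mem_singleton_iff] at hh
      subst hh
      have : g * (g⁻¹ * h) * g = g * (h * g⁻¹) * g := by rw [h5]
      simpa [mul_assoc] using this
    exact ⟨⟨g, hg⟩, rfl⟩
  have hker : Ψ.ker = ψ.ker := by
    ext g
    rw [MonoidHom.mem_ker, MonoidHom.mem_ker, hkerψ g]
    show (QuotientGroup.mk' (Qb M Z0 t Q)) (ψ0 g) = 1 ↔ _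
    rw [QuotientGroup.mk'_apply, QuotientGroup.eq_one_iff, Qb, Subgroup.mem_subgroupOf]
    show QuotientGroup.mk' Z0 (g : M) ∈ Q.map (QuotientGroup.mk' Z0) ↔ _
    rw [Subgroup.mem_map]
    constructor
    · rintro ⟨k, hk, hkg⟩
      have h3 : k⁻¹ * (g : M) ∈ Z0 :=
        (QuotientGroup.eq (s := Z0) (a := k) (b := (g : M))).1 hkg
      exact ⟨k, hk, k⁻¹ * (g : M), h3, by group⟩
    · rintro ⟨q, hq, z, hz, hgz⟩
      refine ⟨q, hq, ?_⟩
      apply (QuotientGroup.eq (s := Z0) (a := q) (b := (g : M))).2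
      rw [hgz]
      have : q⁻¹ * (q * z) = z := by group
      rw [this]; exact hz
  have e1 : ↥(Subgroup.centralizer ({t} : Set M)) ⧸ Ψ.ker ≃* ↥(Cb M Z0 t) ⧸ Qb M Z0 t Q :=
    QuotientGroup.quotientKerEquivOfSurjective Ψ hsurj
  have e2 : ↥(Subgroup.centralizer ({t} : Set M)) ⧸ ψ.ker ≃* X :=
    QuotientGroup.quotientKerEquivOfSurjective ψ hsurjψ
  have e3 : ↥(Subgroup.centralizer ({t} : Set M)) ⧸ Ψ.ker ≃*
      ↥(Subgroup.centralizer ({t} : Set M)) ⧸ ψ.ker :=
    QuotientGroup.quotientMulEquivOfEq hker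
  exact ⟨e1.symm.trans (e3.trans e2)⟩

end Cfsg.Agent.Lib.Helper2.JzSISO
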