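import Mathlib
import Cfsg.Agent.Lib.Helper27.JzStmt

/-!
Piece SWIT of S5403: the two witnesses pass to the quotient by the central subgroup.
-/

set_option autoImplicit false

namespace Cfsg.Agent.Lib.Helper2.JzSWIT

open Cfsg.Agent.Lib.Helper27.JzStmt

theorem mk_mem_Cb {M : Type} [Group M] (Z0 : Subgroup M) [Z0.Normal] (t : M) {g : M}
    (hg : g * t = t * g) : QuotientGroup.mk' Z0 g ∈ Cb M Z0 t := by
  rw [Subgroup.mem_centralizer_iff]
  intro h hh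
  rw [Set.mem_singleton_iff] at hh
  subst hh
  show QuotientGroup.mk' Z0 t * QuotientGroup.mk' Z0 g
    = QuotientGroup.mk' Z0 g * QuotientGroup.mk' Z0 t
  rw [← map_mul, ← map_mul, hg]

theorem main : SWit := by
  intro M _ _ Z0 _ t Q ctx h1 h2
  classical
  constructor
  · obtain ⟨h, hht, k, hk, k', hk', hne⟩ := h1
    have hkt := ctx.Q_comm k hk
    have hk't := ctx.Q_comm k' hk'
    refine ⟨⟨QuotientGroup.mk' Z0 h, mk_mem_Cb Z0 t hht⟩,
      ⟨QuotientGroup.mk' Z0 k, mk_mem_Cb Z0 t hkt⟩, ?_,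
      ⟨QuotientGroup.mk' Z0 k', mk_mem_Cb Z0 t hk't⟩, ?_, ?_⟩
    · rw [Qb, Subgroup.mem_subgroupOf]
      exact Subgroup.mem_map_of_mem _ hk
    · rw [Qb, Subgroup.mem_subgroupOf]
      exact Subgroup.mem_map_of_mem _ hk'
    · intro heq
      apply hne
      have heq' := congrArg Subtype.val heq
      have e1 : QuotientGroup.mk' Z0 ((h * k * h⁻¹ * k⁻¹) * k')
          = QuotientGroup.mk' Z0 (k' * (h * k * h⁻¹ * k⁻¹)) := by
        simp only [map_mul, map_inv]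
        exact heq'
      have h3 : ((h * k * h⁻¹ * k⁻¹) * k')⁻¹ * (k' * (h * k * h⁻¹ * k⁻¹)) ∈ Z0 :=
        (QuotientGroup.eq (s := Z0)).1 e1
      have hc : h * k * h⁻¹ * k⁻¹ ∈ Q := Q.mul_mem (ctx.Q_norm h hht k hk) (Q.inv_mem hk)
      have h4 : ((h * k * h⁻¹ * k⁻¹) * k')⁻¹ * (k' * (h * k * h⁻¹ * k⁻¹)) ∈ Q :=
        Q.mul_mem (Q.inv_mem (Q.mul_mem hc hk')) (Q.mul_mem hk' hc)
      have h5 := ctx.Q_meet _ h4 h3
      exact (inv_mul_eq_one.mp h5)
  · obtain ⟨g, q, hq, z, hz, hgt, hqt⟩ := h2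
    have hqc := ctx.Q_comm q hq
    have e1 : QuotientGroup.mk' Z0 g * zb M Z0 t * (QuotientGroup.mk' Z0 g)⁻¹
        = QuotientGroup.mk' Z0 q := by
      show QuotientGroup.mk' Z0 g * QuotientGroup.mk' Z0 t * (QuotientGroup.mk' Z0 g)⁻¹ = _
      rw [← map_inv, ← map_mul, ← map_mul, hgt]
      apply (QuotientGroup.eq (s := Z0)).2
      have : (q * z)⁻¹ * q = z⁻¹ := by
        have hzc := ctx.central z hz q
        rw [mul_inv_rev, mul_assoc]
        have : q⁻¹ * q = 1 := inv_mul_cancel q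
        rw [this, mul_one]
      rw [this]; exact Z0.inv_mem hz
    refine ⟨QuotientGroup.mk' Z0 g, ⟨?_, ?_⟩, ?_⟩
    · rw [e1]; exact mk_mem_Cb Z0 t hqc
    · rw [Qb, Subgroup.mem_subgroupOf]
      show QuotientGroup.mk' Z0 g * zb M Z0 t * (QuotientGroup.mk' Z0 g)⁻¹ ∈ _
      rw [e1]
      exact Subgroup.mem_map_of_mem _ hq
    · rw [e1]
      intro heq
      apply hqt
      have h3 : q⁻¹ * t ∈ Z0 := (QuotientGroup.eq (s := Z0)).1 heq
      have h4 : q⁻¹ * t ∈ Q := Q.mul_mem (Q.inv_mem hq) ctx.t_mem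
      have h5 := ctx.Q_meet _ h4 h3
      exact (inv_mul_eq_one.mp h5)

end Cfsg.Agent.Lib.Helper2.JzSWIT
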