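import Mathlib
import Cfsg.Agent.Lib.Helper41.OMStmt
import Cfsg.Agent.Lib.Helper10.OFEIGM

/-!
# S5978 piece EIGMG (helper2; generalization of helper10's `OFEIGM` to any index type and any
symmetric invertible Gram matrix; the dimension is shown to be even on the way)
-/

set_option autoImplicit false

namespace Cfsg.Agent.Lib.Helper2.OMEIGMG

open Matrix
open Cfsg.Agent.Lib.Helper41.OMStmt
open Cfsg.Agent.Lib.Helper10.OFEIGM (skew self_zero exists_next)

universe u

theorem exists_family' {F : Type u} [Field F] {V : Type u} [AddCommGroup V] [Module F V]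
    [FiniteDimensional F V] (h2 : (2 : F) ≠ 0)
    (B : LinearMap.BilinForm F V) (X : V →ₗ[F] V)
    (hsym : ∀ a b, B a b = B b a) (hnd : ∀ a, (∀ b, B a b = 0) → a = 0)
    (hiso : ∀ a b, B (X a) (X b) = B a b) (hXX : ∀ a, X (X a) = -a) :
    ∀ n : ℕ, 2 * n ≤ Module.finrank F V + 1 → ∃ (u : Fin n → V) (D : Fin n → F),
      (∀ j, D j ≠ 0) ∧ (∀ i j, B (u i) (u j) = if i = j then D i else 0) ∧
      (∀ i j, B (u i) (X (u j)) = 0) := by
  intro n
  induction n with
  | zero =>
    intro _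
    exact ⟨Fin.elim0, Fin.elim0, fun j => j.elim0, fun i => i.elim0, fun i => i.elim0⟩
  | succ n ih =>
    intro hn
    obtain ⟨u, D, hD, h1, h2'⟩ := ih (by omega)
    obtain ⟨w, hw, hw1, hw2⟩ := exists_next h2 B X hsym hnd hiso n u D hD h1 h2' (by omega)
    refine ⟨Fin.snoc (α := fun _ => V) u w, Fin.snoc (α := fun _ => F) D (B w w), ?_, ?_, ?_⟩
    · intro j
      refine Fin.lastCases ?_ (fun j' => ?_) j
      · simp only [Fin.snoc_last]; exact hw
      · simp only [Fin.snoc_castSucc]; exact hD j'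
    · intro i j
      refine Fin.lastCases ?_ (fun i' => ?_) i <;> refine Fin.lastCases ?_ (fun j' => ?_) j
      · simp only [Fin.snoc_last, if_true]
      · simp only [Fin.snoc_last, Fin.snoc_castSucc]
        rw [hsym, hw1, if_neg (Fin.castSucc_lt_last j').ne']
      · simp only [Fin.snoc_last, Fin.snoc_castSucc]
        rw [hw1, if_neg (Fin.castSucc_lt_last i').ne]
      · simp only [Fin.snoc_castSucc, Fin.castSucc_inj]
        exact h1 i' j'
    · intro i j
      refine Fin.lastCases ?_ (fun i' => ?_) i <;> refine Fin.lastCases ?_ (fun j' => ?_) j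
      · simp only [Fin.snoc_last]
        exact self_zero h2 B X hsym hiso hXX w
      · simp only [Fin.snoc_last, Fin.snoc_castSucc]
        rw [hsym]; exact hw2 j'
      · simp only [Fin.snoc_last, Fin.snoc_castSucc]
        rw [skew B X hiso hXX, hw2, neg_zero]
      · simp only [Fin.snoc_castSucc]
        exact h2' i' j'


theorem main : EigMG.{u} := by
  intro F _ h2 ι _ _ S x hSt hSdet hx hxx
  classical
  let B : LinearMap.BilinForm F (ι → F) := Matrix.toBilin' S
  let X : (ι → F) →ₗ[F] (ι → F) := Matrix.toLin' x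
  have hB : ∀ a b, B a b = a ⬝ᵥ (S *ᵥ b) := fun a b => Matrix.toBilin'_apply' S a b
  have hX : ∀ a, X a = x *ᵥ a := fun a => Matrix.toLin'_apply x a
  have hsym : ∀ a b, B a b = B b a := by
    intro a b
    have key : a ᵥ* S = S *ᵥ a := by
      conv_lhs => rw [← hSt]
      exact Matrix.vecMul_transpose S a
    rw [hB, hB, Matrix.dotProduct_mulVec, key, dotProduct_comm]
  have hiso : ∀ a b, B (X a) (X b) = B a b := by
    intro a b
    rw [hB, hB, hX, hX]
    conv_rhs => rw [← hx]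
    rw [← Matrix.mulVec_mulVec, ← Matrix.mulVec_mulVec, Matrix.dotProduct_mulVec a xᵀ,
      Matrix.vecMul_transpose]
  have hXX : ∀ a, X (X a) = -a := by
    intro a
    rw [hX, hX, Matrix.mulVec_mulVec, hxx, Matrix.neg_mulVec, Matrix.one_mulVec]
  have hnd : ∀ a, (∀ b, B a b = 0) → a = 0 := by
    intro a ha
    have h0 : a ᵥ* S = 0 := by
      apply dotProduct_eq_zero
      intro b
      rw [← Matrix.dotProduct_mulVec, ← hB]
      exact ha b
    exact Matrix.eq_zero_of_vecMul_eq_zero hSdet h0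
  obtain ⟨m, hm1, hm2⟩ : ∃ m : ℕ, 2 * m ≤ Fintype.card ι + 1 ∧ Fintype.card ι ≤ 2 * m :=
    ⟨(Fintype.card ι + 1) / 2, by omega, by omega⟩
  obtain ⟨u, D, hD, h1, h2'⟩ := exists_family' h2 B X hsym hnd hiso hXX m (by
    rw [Module.finrank_fintype_fun_eq_card]; exact hm1)
  let U : Matrix ι (Fin m) F := Matrix.of fun i j => u j i
  let P : Matrix ι (Fin m ⊕ Fin m) F := Matrix.fromCols U (x * U)
  have hgram : Pᵀ * S * P = Matrix.fromBlocks (Matrix.diagonal D) 0 0 (Matrix.diagonal D) := by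
    ext c c'
    rw [Cfsg.Agent.Lib.Helper10.OFEIGM.gram_apply]
    rcases c with i | i <;> rcases c' with j | j
    · show u i ⬝ᵥ (S *ᵥ u j) = _
      rw [← hB, h1, Matrix.fromBlocks_apply₁₁, Matrix.diagonal_apply]
    · show u i ⬝ᵥ (S *ᵥ (x *ᵥ u j)) = _
      rw [← hX, ← hB, h2', Matrix.fromBlocks_apply₁₂]
      rfl
    · show (x *ᵥ u i) ⬝ᵥ (S *ᵥ u j) = _
      rw [← hX, ← hB, hsym, h2', Matrix.fromBlocks_apply₂₁]
      rfl
    · show (x *ᵥ u i) ⬝ᵥ (S *ᵥ (x *ᵥ u j)) = _
      rw [← hX, ← hX, ← hB, hiso, h1, Matrix.fromBlocks_apply₂₂, Matrix.diagonal_apply]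
  obtain ⟨G, hG⟩ : ∃ G : Matrix (Fin m ⊕ Fin m) (Fin m ⊕ Fin m) F,
      G = Matrix.fromBlocks (Matrix.diagonal D) 0 0 (Matrix.diagonal D) := ⟨_, rfl⟩
  rw [← hG] at hgram
  have hGdet : G.det ≠ 0 := by
    rw [hG, Matrix.det_fromBlocks_zero₁₂, Matrix.det_diagonal]
    have hp : ∏ j, D j ≠ 0 := Finset.prod_ne_zero_iff.mpr fun j _ => hD j
    exact mul_ne_zero hp hp
  have hle : 2 * m ≤ Fintype.card ι := by
    have hr1 : (Pᵀ * S * P).rank = Fintype.card (Fin m ⊕ Fin m) := by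
      rw [hgram]
      exact Matrix.rank_of_isUnit _
        ((Matrix.isUnit_iff_isUnit_det _).mpr (isUnit_iff_ne_zero.mpr hGdet))
    have hr2 : (Pᵀ * S * P).rank ≤ P.rank := Matrix.rank_mul_le_right _ _
    have hr3 : P.rank ≤ Fintype.card ι := Matrix.rank_le_card_height P
    rw [Fintype.card_sum, Fintype.card_fin] at hr1
    omega
  have hcard : Fintype.card ι = Fintype.card (Fin m ⊕ Fin m) := by
    rw [Fintype.card_sum, Fintype.card_fin]; omega
  have hP'P : (G⁻¹ * Pᵀ * S) * P = 1 := by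
    rw [Matrix.mul_assoc, Matrix.mul_assoc, ← Matrix.mul_assoc Pᵀ, hgram]
    exact Matrix.nonsing_inv_mul G (isUnit_iff_ne_zero.mpr hGdet)
  have hPP' : P * (G⁻¹ * Pᵀ * S) = 1 := (Matrix.mul_eq_one_comm_of_equiv (Fintype.card_eq.mp hcard).some).mpr hP'P
  refine ⟨m, P, G⁻¹ * Pᵀ * S, D, hPP', hP'P, hD, ?_, ?_⟩
  · rw [hgram, hG]
  · have key : x * Matrix.fromCols U (x * U) = Matrix.fromCols U (x * U) *
        (Matrix.fromBlocks 0 (-1) 1 0 : Matrix (Fin m ⊕ Fin m) (Fin m ⊕ Fin m) F) := by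
      rw [Matrix.mul_fromCols, Matrix.fromCols_mul_fromBlocks, ← Matrix.mul_assoc, hxx]
      simp
    exact key

end Cfsg.Agent.Lib.Helper2.OMEIGMG
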