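import Mathlib
import Cfsg.Agent.Lib.Helper44.NegPairs
import Cfsg.Agent.Lib.Helper44.Gram
import Cfsg.Agent.Lib.Helper2.OMEIGMG

set_option autoImplicit false

/-!
# Isometries with `g ^ 2 = -1` (helper2; generic, any nondegenerate quadratic form, odd `q`)

* `exists_planes`: such a `g` is a product of the `2 n` reflections in `u_j`, `u_j - g u_j`
  (`2 n = dim V`), with product of the `Q`-values `c ^ 2 * 2 ^ n`.
* `mem_omega_iff`: for `Q` on `ι → F`, `F` finite of odd order, `card ι = 2 n`: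
  `g ∈ Ω(Q) ↔ IsSquare (2 ^ n)`.
* `isSquare_det`: a symmetric invertible Gram matrix `S` with an isometry `x`, `x * x = -1`, has
  square determinant.
-/

namespace Cfsg.Agent.Lib.Helper2.NegSqGen

open Module QuadraticMap
open Cfsg.Agent.Lib.Helper44.QSpace Cfsg.Agent.Lib.Helper44.OGroup
open Cfsg.Agent.Lib.Helper44.CartanD

universe u

section abstract

variable {F : Type u} [Field F] {V : Type u} [AddCommGroup V] [Module F V]

theorem plane_step (h2 : (2 : F) ≠ 0) {Q : QuadraticForm F V} {g : V ≃ₗ[F] V} (hg : g ∈ O Q)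
    (hgg : ∀ v, g (g v) = -v) {a : V} (ha : Q a ≠ 0) :
    polar Q a (g a) = 0 ∧ Q (a - g a) = 2 * Q a ∧ reflE Q a (reflE Q (a - g a) a) = g a ∧
      reflE Q a (reflE Q (a - g a) (g a)) = -a := by
  have h0 : polar Q a (g a) = 0 := by
    have h := polar_of_mem_O hg a (g a)
    rw [hgg, polar_neg_right, polar_comm] at h
    have h' : (2 : F) * polar Q a (g a) = 0 := by linear_combination -h
    rcases mul_eq_zero.mp h' with h'' | h''
    · exact absurd h'' h2
    · exact h''
  have hQ : Q (a - g a) = 2 * Q a := by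
    have : a - g a = a + (-1 : F) • g a := by rw [neg_one_smul, sub_eq_add_neg]
    rw [this, q_add, q_smul, polar_smul_r, hg a, h0]; ring
  have hne : Q (a - g a) ≠ 0 := by rw [hQ]; exact mul_ne_zero h2 ha
  have h1 : reflE Q (a - g a) a = g a := reflE_sub (hg a).symm hne
  have h3 : reflE Q (a - g a) (g a) = a := by
    have h := congrArg (fun e : V ≃ₗ[F] V => e a) (reflE_mul_self Q (a - g a))
    simp only [LinearEquiv.mul_apply, LinearEquiv.coe_one, id_eq] at h
    rw [h1] at h
    exact h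
  refine ⟨h0, hQ, ?_, ?_⟩
  · rw [h1, reflE_of_orth (by rw [polar_comm]; exact h0)]
  · rw [h3, reflE_self ha]

theorem pair_fix {Q : QuadraticForm F V} (g : V ≃ₗ[F] V) {x a : V} (h1 : polar Q x a = 0)
    (h2 : polar Q x (g a) = 0) : reflE Q a (reflE Q (a - g a) x) = x := by
  have e1 : reflE Q (a - g a) x = x :=
    reflE_of_orth (by rw [polar_sub_right, h1, h2, sub_zero])
  rw [e1, reflE_of_orth h1]

/-- The list of reflection vectors `u_j, u_j - g u_j` for `j` in a list. -/
def planeList (g : V ≃ₗ[F] V) {κ : Type*} (u : κ → V) (js : List κ) : List V :=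
  js.flatMap (fun j => [u j, u j - g (u j)])

theorem planeList_cons (g : V ≃ₗ[F] V) {κ : Type*} (u : κ → V) (j : κ) (js : List κ) :
    planeList g u (j :: js) = u j :: (u j - g (u j)) :: planeList g u js := by
  simp [planeList]

theorem list_fix {Q : QuadraticForm F V} (g : V ≃ₗ[F] V) {κ : Type*} (u : κ → V) (x : V)
    (js : List κ) (h : ∀ j ∈ js, polar Q x (u j) = 0 ∧ polar Q x (g (u j)) = 0) :
    ((planeList g u js).map (reflE Q)).prod x = x := by
  induction js with
  | nil => simp [planeList]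
  | cons j js ih =>
    rw [planeList_cons, List.map_cons, List.map_cons, List.prod_cons, List.prod_cons,
      LinearEquiv.mul_apply, LinearEquiv.mul_apply, ih (fun i hi => h i (List.mem_cons_of_mem _ hi)),
      pair_fix g (h j List.mem_cons_self).1 (h j List.mem_cons_self).2]

theorem plane_prod (h2 : (2 : F) ≠ 0) {Q : QuadraticForm F V} {g : V ≃ₗ[F] V} (hg : g ∈ O Q)
    (hgg : ∀ v, g (g v) = -v) {κ : Type*} (u : κ → V) (hu : ∀ j, Q (u j) ≠ 0)
    (ho : ∀ i j, i ≠ j → polar Q (u i) (u j) = 0)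
    (hog : ∀ i j, i ≠ j → polar Q (u i) (g (u j)) = 0)
    (js : List κ) (hnd : js.Nodup) (l : κ) (hl : l ∈ js) :
    ((planeList g u js).map (reflE Q)).prod (u l) = g (u l) ∧
      ((planeList g u js).map (reflE Q)).prod (g (u l)) = -(u l) := by
  have hgo : ∀ i j, i ≠ j → polar Q (g (u i)) (u j) = 0 := fun i j hij => by
    rw [polar_comm]; exact hog j i (Ne.symm hij)
  have hgg' : ∀ i j, i ≠ j → polar Q (g (u i)) (g (u j)) = 0 := fun i j hij => by
    rw [polar_of_mem_O hg]; exact ho i j hij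
  induction js with
  | nil => simp at hl
  | cons j js ih =>
    rw [List.nodup_cons] at hnd
    rw [planeList_cons, List.map_cons, List.map_cons, List.prod_cons, List.prod_cons,
      LinearEquiv.mul_apply, LinearEquiv.mul_apply, LinearEquiv.mul_apply, LinearEquiv.mul_apply]
    by_cases hlj : l = j
    · subst hlj
      have hf1 : ((planeList g u js).map (reflE Q)).prod (u l) = u l :=
        list_fix g u (u l) js (fun i hi => by
          have hne : l ≠ i := fun h => hnd.1 (h ▸ hi)
          exact ⟨ho l i hne, hog l i hne⟩)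
      have hf2 : ((planeList g u js).map (reflE Q)).prod (g (u l)) = g (u l) :=
        list_fix g u (g (u l)) js (fun i hi => by
          have hne : l ≠ i := fun h => hnd.1 (h ▸ hi)
          exact ⟨hgo l i hne, hgg' l i hne⟩)
      obtain ⟨-, -, s1, s2⟩ := plane_step h2 hg hgg (hu l)
      rw [hf1, hf2]
      exact ⟨s1, s2⟩
    · have hl' : l ∈ js := by
        rcases List.mem_cons.mp hl with h | h
        · exact absurd h hlj
        · exact h
      obtain ⟨i1, i2⟩ := ih hnd.2 hl'
      rw [i1, i2, map_neg, map_neg]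
      refine ⟨pair_fix g (hgo l j hlj) (hgg' l j hlj), ?_⟩
      rw [pair_fix g (ho l j hlj) (hog l j hlj)]

theorem planeList_props (h2 : (2 : F) ≠ 0) {Q : QuadraticForm F V} {g : V ≃ₗ[F] V} (hg : g ∈ O Q)
    (hgg : ∀ v, g (g v) = -v) {κ : Type*} (u : κ → V) (hu : ∀ j, Q (u j) ≠ 0) (js : List κ) :
    (∀ v ∈ planeList g u js, Q v ≠ 0) ∧ (planeList g u js).length = 2 * js.length ∧
      ((planeList g u js).map (fun v => Q v)).prod
        = ((js.map (fun j => Q (u j))).prod) ^ 2 * 2 ^ js.length := by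
  induction js with
  | nil => simp [planeList]
  | cons j js ih =>
    obtain ⟨ih1, ih2, ih3⟩ := ih
    obtain ⟨-, hQ, -, -⟩ := plane_step h2 hg hgg (hu j)
    rw [planeList_cons]
    refine ⟨?_, ?_, ?_⟩
    · intro v hv
      rcases List.mem_cons.mp hv with rfl | hv
      · exact hu j
      · rcases List.mem_cons.mp hv with rfl | hv
        · rw [hQ]; exact mul_ne_zero h2 (hu j)
        · exact ih1 v hv
    · simp only [List.length_cons, ih2]; ring
    · simp only [List.map_cons, List.prod_cons, ih3, hQ, List.length_cons, pow_succ]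
      ring

/-- An isometry with `g ^ 2 = -1` is a product of `2 n = dim V` reflections whose `Q`-values
multiply to `c ^ 2 * 2 ^ n`. -/
theorem exists_planes [FiniteDimensional F V] (h2 : (2 : F) ≠ 0) {Q : QuadraticForm F V}
    (hS : Sep Q) (g : V ≃ₗ[F] V) (hg : g ∈ O Q) (hgg : ∀ v, g (g v) = -v) :
    ∃ (n : ℕ) (vs : List V), 2 * n = finrank F V ∧ (∀ v ∈ vs, Q v ≠ 0) ∧ vs.length = 2 * n ∧
      (∃ c : F, c ≠ 0 ∧ (vs.map (fun v => Q v)).prod = c ^ 2 * 2 ^ n) ∧
      ∀ x, g x = (vs.map (reflE Q)).prod x := by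
  classical
  obtain ⟨n, hn1, hn2⟩ : ∃ n : ℕ, 2 * n ≤ finrank F V + 1 ∧ finrank F V ≤ 2 * n :=
    ⟨(finrank F V + 1) / 2, by omega, by omega⟩
  obtain ⟨u, D, hD, hu1, hu2⟩ := Cfsg.Agent.Lib.Helper2.OMEIGMG.exists_family' h2 (polarBilin Q)
    (g : V →ₗ[F] V) (fun a b => polar_comm Q a b) (fun a ha => hS a ha)
    (fun a b => polar_of_mem_O hg a b) hgg n hn1
  have hu1' : ∀ i j, polar Q (u i) (u j) = if i = j then D i else 0 := hu1
  have hu2' : ∀ i j, polar Q (u i) (g (u j)) = 0 := hu2
  have hQu : ∀ j, Q (u j) ≠ 0 := by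
    intro j hj
    have h := hu1' j j
    rw [if_pos rfl, polar_self', hj, mul_zero] at h
    exact hD j h.symm
  have ho : ∀ i j, i ≠ j → polar Q (u i) (u j) = 0 := fun i j hij => by
    rw [hu1', if_neg hij]
  -- the family `u_j, g u_j` is a basis
  obtain ⟨z, hz⟩ : ∃ z : Fin n ⊕ Fin n → V, z = Sum.elim u (fun j => g (u j)) := ⟨_, rfl⟩
  have hli : LinearIndependent F z := by
    apply LinearMap.BilinForm.linearIndependent_of_iIsOrtho (B := polarBilin Q)
    · intro c c' hne
      show polar Q (z c) (z c') = 0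
      rw [hz]
      rcases c with i | i <;> rcases c' with j | j
      · exact ho i j (fun h => hne (by rw [h]))
      · exact hu2' i j
      · show polar Q (g (u i)) (u j) = 0
        rw [polar_comm]; exact hu2' j i
      · show polar Q (g (u i)) (g (u j)) = 0
        rw [polar_of_mem_O hg]
        exact ho i j (fun h => hne (by rw [h]))
    · intro c
      show polar Q (z c) (z c) ≠ 0
      rw [hz, polar_self']
      rcases c with i | i
      · exact mul_ne_zero h2 (hQu i)
      · show 2 * Q (g (u i)) ≠ 0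
        rw [hg (u i)]
        exact mul_ne_zero h2 (hQu i)
  have hcard := hli.fintype_card_le_finrank
  rw [Fintype.card_sum, Fintype.card_fin] at hcard
  have hdim : 2 * n = finrank F V := by omega
  have hspan : Submodule.span F (Set.range z) = ⊤ :=
    hli.span_eq_top_of_card_eq_finrank' (by rw [Fintype.card_sum, Fintype.card_fin]; omega)
  obtain ⟨p1, p2, p3⟩ := planeList_props h2 hg hgg u hQu (List.finRange n)
  refine ⟨n, planeList g u (List.finRange n), hdim, p1, by rw [p2, List.length_finRange],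
    ⟨((List.finRange n).map (fun j => Q (u j))).prod, ?_, by rw [p3, List.length_finRange]⟩, ?_⟩
  · apply List.prod_ne_zero
    intro h
    rw [List.mem_map] at h
    obtain ⟨j, -, hj⟩ := h
    exact hQu j hj
  · have key : (g : V →ₗ[F] V)
        = (((planeList g u (List.finRange n)).map (reflE Q)).prod : V ≃ₗ[F] V) := by
      apply LinearMap.ext_on_range hspan
      intro c
      rw [hz]
      rcases c with l | l
      · exact ((plane_prod h2 hg hgg u hQu ho (fun i j _ => hu2' i j) (List.finRange n)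
          (List.nodup_finRange n) l (List.mem_finRange l)).1).symm
      · show g (g (u l)) = _
        rw [hgg]
        exact ((plane_prod h2 hg hgg u hQu ho (fun i j _ => hu2' i j) (List.finRange n)
          (List.nodup_finRange n) l (List.mem_finRange l)).2).symm
    intro x
    exact LinearMap.congr_fun key x

end abstract

section matrix

open Matrix
open Cfsg.Agent.Lib.Helper44.OMat Cfsg.Agent.Lib.Helper44.Gram

/-- **Spinor norm of an isometry with square `-1`**: `g ∈ Ω(Q) ↔ 2 ^ n` is a square, where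
`card ι = 2 n`. -/
theorem mem_omega_iff {F : Type u} [Field F] [Fintype F] {ι : Type} [Fintype ι] [DecidableEq ι]
    (h2 : (2 : F) ≠ 0) (Q : QuadraticForm F (ι → F)) (hS : Sep Q)
    (hn : 2 ≤ Fintype.card ι) (g : ↥(Cfsg.isometryGroup F ⇑Q))
    (hgg : ((g : GL ι F) : Matrix ι ι F) * ((g : GL ι F) : Matrix ι ι F) = -1) :
    ∃ n : ℕ, Fintype.card ι = 2 * n ∧ (g ∈ Cfsg.Omega F ⇑Q ↔ IsSquare ((2 : F) ^ n)) := by
  obtain ⟨G, hG⟩ : ∃ G : ↥(O Q), G = isoEquiv Q g := ⟨_, rfl⟩
  have hGv : ∀ v, (G : (ι → F) ≃ₗ[F] (ι → F)) v = ((g : GL ι F) : Matrix ι ι F) *ᵥ v := by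
    intro v
    rw [hG]
    rfl
  have hGG : ∀ v, (G : (ι → F) ≃ₗ[F] (ι → F)) ((G : (ι → F) ≃ₗ[F] (ι → F)) v) = -v := by
    intro v
    rw [hGv, hGv, Matrix.mulVec_mulVec, hgg, Matrix.neg_mulVec, Matrix.one_mulVec]
  obtain ⟨n, vs, hdim, hvs, hlen, ⟨c, hc, hprod⟩, hform⟩ :=
    exists_planes h2 hS (G : (ι → F) ≃ₗ[F] (ι → F)) G.2 hGG
  refine ⟨n, by rw [hdim, Module.finrank_fintype_fun_eq_card], ?_⟩
  rw [mem_omega_iff_of_mulVec h2 Q hS hn g vs hvs (fun v => by rw [← hGv, hform]), hlen, hprod,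
    isSquare_sq_mul_iff hc]
  constructor
  · intro h; exact h.2
  · intro h; exact ⟨⟨n, by ring⟩, h⟩

theorem isSquare_two_pow_iff {F : Type u} [Field F] [Fintype F] (h2 : (2 : F) ≠ 0) (n : ℕ) :
    IsSquare ((2 : F) ^ n)
      ↔ (Even n ∨ (Fintype.card F % 8 ≠ 3 ∧ Fintype.card F % 8 ≠ 5)) := by
  rcases Nat.even_or_odd n with ⟨k, hk⟩ | ⟨k, hk⟩
  · constructor
    · intro _; exact Or.inl ⟨k, hk⟩
    · intro _; exact ⟨2 ^ k, by rw [hk, pow_add]⟩
  · have e : (2 : F) ^ n = (2 ^ k) ^ 2 * 2 := by rw [hk]; ring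
    rw [e, isSquare_sq_mul_iff (pow_ne_zero _ h2), FiniteField.isSquare_two_iff]
    constructor
    · intro h; exact Or.inr h
    · rintro (h | h)
      · exact absurd h (Nat.not_even_iff_odd.mpr ⟨k, hk⟩)
      · exact h

/-- `g ∈ Ω(Q)`, `g * g = -1`, `card ι = 2 n`: `n` is even or `q ≡ ± 1 (mod 8)`. -/
theorem mem_omega_iff' {F : Type u} [Field F] [Fintype F] {ι : Type} [Fintype ι] [DecidableEq ι]
    (h2 : (2 : F) ≠ 0) (Q : QuadraticForm F (ι → F)) (hS : Sep Q)
    (hn : 2 ≤ Fintype.card ι) (g : ↥(Cfsg.isometryGroup F ⇑Q))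
    (hgg : ((g : GL ι F) : Matrix ι ι F) * ((g : GL ι F) : Matrix ι ι F) = -1) :
    ∃ n : ℕ, Fintype.card ι = 2 * n ∧ (g ∈ Cfsg.Omega F ⇑Q ↔
      (Even n ∨ (Fintype.card F % 8 ≠ 3 ∧ Fintype.card F % 8 ≠ 5))) := by
  obtain ⟨n, h1, h3⟩ := mem_omega_iff h2 Q hS hn g hgg
  exact ⟨n, h1, by rw [h3, isSquare_two_pow_iff h2]⟩

/-- A symmetric invertible Gram matrix with an isometry of square `-1` has square determinant. -/
theorem isSquare_det {F : Type u} [Field F] (h2 : (2 : F) ≠ 0) {ι : Type} [Fintype ι]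
    [DecidableEq ι] (S x : Matrix ι ι F) (hSt : Sᵀ = S) (hdet : S.det ≠ 0)
    (hx : xᵀ * S * x = S) (hxx : x * x = -1) : IsSquare S.det := by
  obtain ⟨m, P, P', D, hPP', hP'P, hD, hgram, -⟩ :=
    Cfsg.Agent.Lib.Helper2.OMEIGMG.main h2 S x hSt hdet hx hxx
  have hcard : Fintype.card ι = Fintype.card (Fin m ⊕ Fin m) := by
    have h1 : Fintype.card ι ≤ Fintype.card (Fin m ⊕ Fin m) := by
      have := Matrix.rank_mul_le_left P P'
      rw [hPP', Matrix.rank_one] at this
      exact this.trans (Matrix.rank_le_card_width P)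
    have h2' : Fintype.card (Fin m ⊕ Fin m) ≤ Fintype.card ι := by
      have := Matrix.rank_mul_le_right P' P
      rw [hP'P, Matrix.rank_one] at this
      exact this.trans (Matrix.rank_le_card_height P)
    omega
  obtain ⟨e⟩ := Fintype.card_eq.mp hcard
  have hg1 : (P.submatrix id e)ᵀ * S * (P.submatrix id e)
      = (Matrix.fromBlocks (Matrix.diagonal D) 0 0 (Matrix.diagonal D)).submatrix e e := by
    rw [← hgram]
    ext i j
    rfl
  have hdet1 := congrArg Matrix.det hg1
  rw [Matrix.det_mul, Matrix.det_mul, Matrix.det_transpose, Matrix.det_submatrix_equiv_self,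
    Matrix.det_fromBlocks_zero₁₂, Matrix.det_diagonal] at hdet1
  have hp : ∏ j, D j ≠ 0 := Finset.prod_ne_zero_iff.mpr fun j _ => hD j
  have hP1 : (P.submatrix id e).det ≠ 0 := by
    intro h
    rw [h, zero_mul, zero_mul] at hdet1
    exact mul_ne_zero hp hp hdet1.symm
  refine ⟨(∏ j, D j) / (P.submatrix id e).det, ?_⟩
  field_simp
  linear_combination hdet1

end matrix

end Cfsg.Agent.Lib.Helper2.NegSqGen
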