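import Mathlib
import Cfsg.Agent.Lib.Helper41.OMStmt
import Cfsg.Agent.Lib.Helper47.OFOMV

/-!
# S5978 piece OMVG (helper2; generalization of helper47's `OFOMV` to any index type and any
symmetric invertible Gram matrix)
-/

set_option autoImplicit false

namespace Cfsg.Agent.Lib.Helper2.OMOMVG

open Matrix
open Cfsg.Agent.Lib.Helper41.OMStmt

universe u

theorem main : Cfsg.Agent.Lib.Helper41.OMStmt.OmVG.{u} := by
  intro F _ _ h2 ι _ _ hcard S hS hSdet l hl J hJJ hSJ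
  obtain ⟨B, hB⟩ : ∃ B : (ι → F) →ₗ[F] (ι → F) →ₗ[F] F,
      ∀ u w, B u w = u ⬝ᵥ (S *ᵥ w) :=
    ⟨Matrix.toLinearMap₂' F S, fun u w => Matrix.toLinearMap₂'_apply' _ _ _⟩
  obtain ⟨Jl, hJl⟩ : ∃ Jl : (ι → F) →ₗ[F] (ι → F),
      ∀ u, Jl u = J *ᵥ u := ⟨Matrix.toLin' J, fun u => Matrix.toLin'_apply J u⟩
  have hsymm : ∀ u w, B u w = B w u := by
    intro u w
    rw [hB, hB, Matrix.dotProduct_mulVec, ← Matrix.mulVec_transpose, hS, dotProduct_comm]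
  have hBJ : ∀ u w, B (Jl u) w = B u (Jl w) := by
    intro u w
    rw [hB, hB, hJl, hJl, ← Matrix.vecMul_transpose, ← Matrix.dotProduct_mulVec,
      Matrix.mulVec_mulVec, Matrix.mulVec_mulVec, hSJ]
  have hJJ' : ∀ u, Jl (Jl u) = l • u := by
    intro u
    rw [hJl, hJl, Matrix.mulVec_mulVec, hJJ, Matrix.smul_mulVec, Matrix.one_mulVec]
  obtain ⟨e, he0, he⟩ := Cfsg.Agent.Lib.Helper47.OFOMV.exists_isotropic hcard (S * J)
  have heJ : B e (Jl e) = 0 := by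
    rw [hB, hJl, Matrix.mulVec_mulVec]
    exact he
  obtain ⟨i, hi⟩ : ∃ i, e i ≠ 0 := by
    by_contra hcon
    apply he0
    funext i
    by_contra hne
    exact hcon ⟨i, hne⟩
  have hinv : S * S⁻¹ = 1 := Matrix.mul_nonsing_inv S (isUnit_iff_ne_zero.mpr hSdet)
  have hg : B e (S⁻¹ *ᵥ Pi.single i 1) ≠ 0 := by
    rw [hB, Matrix.mulVec_mulVec, hinv, Matrix.one_mulVec, dotProduct_single, mul_one]
    exact hi
  obtain ⟨v, hv1, hv2⟩ :=
    Cfsg.Agent.Lib.Helper47.OFOMV.abstract_core h2 l hl B Jl hsymm hBJ hJJ' e _ heJ hg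
  refine ⟨v, ?_, ?_⟩
  · rw [← hB]
    exact hv1
  · rw [← hJl, ← hB]
    exact hv2

end Cfsg.Agent.Lib.Helper2.OMOMVG
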