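import Mathlib
import Cfsg.Agent.Lib.Helper45.OMiStmt
import Cfsg.Agent.S0791

set_option autoImplicit false

/-! Piece NEGSQNONAM of S5991 (helper2): `d` even or `q ≡ 1 (mod 4)`: no element of `Ω⁻` has
square `-1`, because `-1 ∉ Ω⁻` (S0791). -/

namespace Cfsg.Agent.Lib.Helper2.OMiNEGSQNONAM

open Matrix
open Cfsg.Agent.Lib.Helper45.OMiStmt

universe u

theorem pow_mod_four_ne (q d : ℕ) (hq : Odd q) (h : Even d ∨ q % 4 = 1) : q ^ d % 4 ≠ 3 := by
  rcases h with ⟨k, hk⟩ | h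
  · have h13 : q % 4 = 1 ∨ q % 4 = 3 := by
      rw [Nat.odd_iff] at hq; omega
    have hsq : q ^ 2 % 4 = 1 := by
      rw [Nat.pow_mod]
      rcases h13 with h | h <;> rw [h]
    have : q ^ d % 4 = 1 := by
      rw [hk, ← two_mul, pow_mul, Nat.pow_mod, hsq, one_pow]
      norm_num
    omega
  · have : q ^ d % 4 = 1 := by
      rw [Nat.pow_mod, h, one_pow]
      norm_num
    omega

theorem main : NegSqNonAM.{u} := by
  intro F _ _ hqodd d hd hcase a b hab x hx hxx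
  classical
  unfold Cfsg.Geo.omegaGL at hx
  rw [Subgroup.mem_map] at hx
  obtain ⟨g, hgΩ, rfl⟩ := hx
  have h1 : ∃ g' : ↥(Cfsg.isometryGroup F (Cfsg.quadFormMinus (d - 1) F a b)),
      g' ∈ Cfsg.Omega F (Cfsg.quadFormMinus (d - 1) F a b) ∧
      ((g' : Matrix.GeneralLinearGroup ((Fin (d - 1) ⊕ Fin (d - 1)) ⊕ Fin 2) F) :
        Matrix ((Fin (d - 1) ⊕ Fin (d - 1)) ⊕ Fin 2) ((Fin (d - 1) ⊕ Fin (d - 1)) ⊕ Fin 2) F)
        = -1 := by
    refine ⟨g * g, Subgroup.mul_mem _ hgΩ hgΩ, ?_⟩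
    rw [Subgroup.coe_mul, Units.val_mul]
    exact hxx
  have h2 := (Cfsg.Agent.S0791.result (F := F) rfl hqodd d hd a b hab).1 h1
  exact pow_mod_four_ne _ d hqodd hcase h2

end Cfsg.Agent.Lib.Helper2.OMiNEGSQNONAM
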