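import Mathlib
import Cfsg.Agent.Lib.Helper45.OMiStmt
import Cfsg.Agent.Lib.Helper2.NegSqGen

set_option autoImplicit false

/-! Piece NEGSQNONBM of S5991 (helper2): `d` odd, `q ≡ 3 (mod 8)`: no element of `Ω⁻` has square
`-1` (generic spinor norm `2 ^ d` of an isometry with square `-1`, `Helper2.NegSqGen`). -/

namespace Cfsg.Agent.Lib.Helper2.OMiNEGSQNONBM

open Matrix
open Cfsg.Agent.Lib.Helper45.OMiStmt
open Cfsg.Agent.Lib.Helper44.NegPairs

universe u

theorem main : NegSqNonBM.{u} := by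
  intro F _ _ hq8 d hd hodd a b hab x hx hxx
  classical
  have hqodd : Odd (Fintype.card F) := by rw [Nat.odd_iff]; omega
  have h2 : (2 : F) ≠ 0 := Cfsg.Agent.Lib.Helper44.FinSq.two_ne_zero_of_odd_card hqodd
  unfold Cfsg.Geo.omegaGL at hx
  rw [Subgroup.mem_map] at hx
  obtain ⟨g, hgΩ, rfl⟩ := hx
  have hxx' : ((g : GL (M d) F) : Matrix (M d) (M d) F) * ((g : GL (M d) F) : Matrix (M d) (M d) F)
      = -1 := hxx
  have hcard : Fintype.card (M d) = 2 * d := by
    rw [Fintype.card_sum, Fintype.card_sum, Fintype.card_fin, Fintype.card_fin]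
    omega
  obtain ⟨n, hn, hiff⟩ := Cfsg.Agent.Lib.Helper2.NegSqGen.mem_omega_iff' h2 (minusQ (d - 1) F a b)
    (sep_minusQ h2 (d - 1) a b hab) (by rw [hcard]; omega) g hxx'
  have hnd2 : 2 * n = 2 * d := hn.symm.trans hcard
  have hnd : n = d := by omega
  rcases hiff.mp hgΩ with h | ⟨h3, -⟩
  · rw [hnd] at h
    exact (Nat.not_even_iff_odd.mpr hodd) h
  · exact h3 hq8

end Cfsg.Agent.Lib.Helper2.OMiNEGSQNONBM
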