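import Mathlib
import Cfsg.Agent.Lib.Helper37.OrtStmt

/-!
# S5981, piece DER1: `δ • diag(ω, 1, ..., 1)` of determinant `1` is not a similarity of a
non-degenerate symmetric form
-/

set_option autoImplicit false

namespace Cfsg.Agent.Lib.Helper2.OrtDER1

open Matrix

universe u

/-- `r ∣ N`, `v_r(n) < v_r(N)`: `gcd n N ∣ N / r`. -/
theorem gcd_dvd_div (r : ℕ) [Fact r.Prime] (n N : ℕ) (hn : n ≠ 0) (hN : N ≠ 0)
    (hval : padicValNat r n < padicValNat r N) :
    ∃ e : ℕ, N = r * (Nat.gcd n N * e) := by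
  have hr : r.Prime := Fact.out
  have hdN : Nat.gcd n N ∣ N := Nat.gcd_dvd_right n N
  have hdn : Nat.gcd n N ∣ n := Nat.gcd_dvd_left n N
  have hd0 : Nat.gcd n N ≠ 0 := fun h => hn (Nat.eq_zero_of_gcd_eq_zero_left h)
  have hq0 : N / Nat.gcd n N ≠ 0 := by
    intro h
    have := Nat.div_mul_cancel hdN
    rw [h, zero_mul] at this
    exact hN this.symm
  have h1 : r ∣ N / Nat.gcd n N := by
    by_contra hnd
    have hv : padicValNat r N = padicValNat r (Nat.gcd n N) + padicValNat r (N / Nat.gcd n N) := by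
      conv_lhs => rw [← Nat.mul_div_cancel' hdN]
      exact padicValNat.mul hd0 hq0
    rw [padicValNat.eq_zero_of_not_dvd hnd, add_zero] at hv
    have h2 : padicValNat r (Nat.gcd n N) ≤ padicValNat r n :=
      (padicValNat_dvd_iff_le hn).1 (pow_padicValNat_dvd.trans hdn)
    omega
  obtain ⟨e, he⟩ := h1
  refine ⟨e, ?_⟩
  have := Nat.mul_div_cancel' hdN
  rw [he] at this
  exact this.symm.trans (by ring)

theorem main : Cfsg.Agent.Lib.Helper37.OrtStmt.DiagSym.{u} →
    Cfsg.Agent.Lib.Helper37.OrtStmt.Der1.{u} := by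
  intro hDS F _ _ r _ hr2 hrdvd n hn hval
  classical
  have hr : r.Prime := Fact.out
  have hr3 : 3 ≤ r := by have := hr.two_le; omega
  obtain ⟨N, hNdef⟩ : ∃ N : ℕ, N = Fintype.card F - 1 := ⟨_, rfl⟩
  rw [← hNdef] at hrdvd hval
  have hN0 : N ≠ 0 := by
    have := Fintype.one_lt_card (α := F)
    omega
  -- a generator of `Fˣ`
  obtain ⟨g, hg⟩ := IsCyclic.exists_generator (α := Fˣ)
  have hordg : orderOf g = N := by
    rw [orderOf_eq_card_of_forall_mem_zpowers hg, Nat.card_eq_fintype_card, Fintype.card_units,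
      hNdef]
  obtain ⟨e, he⟩ := gcd_dvd_div r n N (by omega) hN0 hval
  have hNr : N / r = Nat.gcd n N * e := Nat.div_eq_of_eq_mul_right hr.pos he
  -- `ω` of order `r`
  obtain ⟨u, hudef⟩ : ∃ u : Fˣ, u = g ^ (N / r) := ⟨_, rfl⟩
  have hu : orderOf u = r := by
    have hNr0 : N / r ≠ 0 := by
      intro h
      have := Nat.div_mul_cancel hrdvd
      rw [h, zero_mul] at this
      exact hN0 this.symm
    rw [hudef, orderOf_pow_of_dvd hNr0 (by rw [hordg]; exact Nat.div_dvd_of_dvd hrdvd), hordg,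
      Nat.div_div_self hrdvd hN0]
  -- `δ`
  have hbez := Nat.gcd_eq_gcd_ab n N
  obtain ⟨du, hdudef⟩ : ∃ du : Fˣ, du = g ^ (-(e : ℤ) * Nat.gcdA n N) := ⟨_, rfl⟩
  have hdu : du ^ n * u = 1 := by
    rw [hdudef, hudef, ← zpow_natCast, ← zpow_natCast, ← _root_.zpow_mul, ← _root_.zpow_add]
    have hexp : -(e : ℤ) * Nat.gcdA n N * (n : ℤ) + ((N / r : ℕ) : ℤ)
        = (N : ℤ) * ((e : ℤ) * Nat.gcdB n N) := by
      rw [hNr]; push_cast; linear_combination (e : ℤ) * hbez
    rw [hexp, _root_.zpow_mul, zpow_natCast, ← hordg, pow_orderOf_eq_one, _root_.one_zpow]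
  obtain ⟨ω, hωdef⟩ : ∃ ω : F, ω = (u : F) := ⟨_, rfl⟩
  obtain ⟨δ, hδdef⟩ : ∃ δ : F, δ = (du : F) := ⟨_, rfl⟩
  have hpow : ∀ k : ℕ, ω ^ k = 1 ↔ r ∣ k := by
    intro k
    rw [hωdef, ← Units.val_pow_eq_pow_val, Units.val_eq_one, ← orderOf_dvd_iff_pow_eq_one, hu]
  have hω0 : ω ≠ 0 := by rw [hωdef]; exact u.ne_zero
  have hδ0 : δ ≠ 0 := by rw [hδdef]; exact du.ne_zero
  have hωr : ω ^ r = 1 := (hpow r).2 dvd_rfl
  have hω1 : ω ≠ 1 := by
    intro h
    have h1 := (hpow 1).1 (by rw [pow_one]; exact h)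
    have := Nat.le_of_dvd one_pos h1
    omega
  have hδω : δ ^ n * ω = 1 := by
    have := congrArg Units.val hdu
    rw [Units.val_mul, Units.val_pow_eq_pow_val, Units.val_one] at this
    rw [hδdef, hωdef]; exact this
  -- the eigenvalues
  obtain ⟨lam, hlam⟩ : ∃ lam : Fin n → F, lam = fun j => if j.val = 0 then δ * ω else δ :=
    ⟨_, rfl⟩
  have hlam0 : ∀ j : Fin n, j.val = 0 → lam j = δ * ω := by
    intro j hj; rw [hlam]; simp only; rw [if_pos hj]
  have hlam1 : ∀ j : Fin n, j.val ≠ 0 → lam j = δ := by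
    intro j hj; rw [hlam]; simp only; rw [if_neg hj]
  have hlamne : ∀ j, lam j ≠ 0 := by
    intro j
    by_cases h : j.val = 0
    · rw [hlam0 j h]; exact mul_ne_zero hδ0 hω0
    · rw [hlam1 j h]; exact hδ0
  have hlamr : ∀ j, lam j ^ r = δ ^ r := by
    intro j
    by_cases h : j.val = 0
    · rw [hlam0 j h, mul_pow, hωr, mul_one]
    · rw [hlam1 j h]
  refine ⟨Matrix.diagonal lam, ?_, ⟨δ ^ r, ?_⟩, ?_, ?_⟩
  · -- determinant
    rw [Matrix.det_diagonal]
    obtain ⟨m, rfl⟩ : ∃ m, n = m + 1 := ⟨n - 1, by omega⟩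
    rw [Fin.prod_univ_succ, hlam0 0 (by simp)]
    have hrest : ∏ i : Fin m, lam i.succ = δ ^ m := by
      rw [Finset.prod_congr rfl (fun i _ => hlam1 i.succ (by simp)), Finset.prod_const,
        Finset.card_univ, Fintype.card_fin]
    rw [hrest, ← hδω]; ring
  · -- `x ^ r` is a scalar
    rw [Matrix.diagonal_pow]
    have : lam ^ r = fun _ => δ ^ r := by
      funext j; exact hlamr j
    rw [this, Matrix.smul_one_eq_diagonal]
  · -- not scalar
    intro z hz
    have h0 := congrFun (congrFun hz ⟨0, by omega⟩) ⟨0, by omega⟩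
    have h1 := congrFun (congrFun hz ⟨1, by omega⟩) ⟨1, by omega⟩
    simp only [Matrix.diagonal_apply_eq, Matrix.smul_apply, Matrix.one_apply_eq, smul_eq_mul,
      mul_one] at h0 h1
    rw [hlam0 _ (by simp)] at h0
    rw [hlam1 _ (by simp)] at h1
    apply hω1
    have : δ * ω = δ * 1 := by rw [mul_one, h0, h1]
    exact mul_left_cancel₀ hδ0 this
  · intro S' c hS' hdet heq
    have hDS' := hDS F n (Matrix.diagonal lam) 1 S' lam c (by simp) hlamne (by simp) hS' hdet heq
    -- `c = δ * δ`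
    have hc : c = δ * δ := by
      have h := hDS' δ
      have hnt : Nontrivial {j : Fin n // lam j = δ} :=
        ⟨⟨⟨⟨1, by omega⟩, hlam1 _ (by simp)⟩, ⟨⟨2, by omega⟩, hlam1 _ (by simp)⟩, by
          intro hh
          have := congrArg (fun z : {j : Fin n // lam j = δ} => z.1.val) hh
          simp at this⟩⟩
      have h2 : 1 < Nat.card {j : Fin n // lam j * δ = c} := by
        rw [← h]; exact Finite.one_lt_card_iff_nontrivial.2 hnt
      obtain ⟨a, b, hab⟩ := Finite.one_lt_card_iff_nontrivial.1 h2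
      have hex : ∃ j : Fin n, j.val ≠ 0 ∧ lam j * δ = c := by
        by_cases ha : a.1.val = 0
        · refine ⟨b.1, ?_, b.2⟩
          intro hb
          apply hab
          apply Subtype.ext
          apply Fin.ext
          rw [ha, hb]
        · exact ⟨a.1, ha, a.2⟩
      obtain ⟨j, hj, hjc⟩ := hex
      rw [hlam1 j hj] at hjc
      exact hjc.symm
    -- contradiction from the eigenvalue `δ * ω`
    have h := hDS' (δ * ω)
    have hpos : 0 < Nat.card {j : Fin n // lam j = δ * ω} :=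
      Nat.card_pos_iff.2 ⟨⟨⟨⟨0, by omega⟩, hlam0 _ (by simp)⟩⟩, inferInstance⟩
    rw [h] at hpos
    obtain ⟨⟨j, hj⟩⟩ := (Nat.card_pos_iff.1 hpos).1
    rw [hc] at hj
    by_cases hj0 : j.val = 0
    · rw [hlam0 j hj0] at hj
      have h2 : ω ^ 2 = 1 := by
        have h3 : (δ * δ) * ω ^ 2 = (δ * δ) * 1 := by linear_combination hj
        exact mul_left_cancel₀ (mul_ne_zero hδ0 hδ0) h3
      have := Nat.le_of_dvd two_pos ((hpow 2).1 h2)
      omega
    · rw [hlam1 j hj0] at hj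
      apply hω1
      have h3 : (δ * δ) * ω = (δ * δ) * 1 := by linear_combination hj
      exact mul_left_cancel₀ (mul_ne_zero hδ0 hδ0) h3

end Cfsg.Agent.Lib.Helper2.OrtDER1
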