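import Mathlib
import Cfsg.Agent.Lib.Helper37.OrtStmt

/-!
# S5981, piece DER2: `diag(ω, ω, ω⁻², 1, ..., 1)` is not a similarity of a non-degenerate
symmetric form
-/

set_option autoImplicit false

namespace Cfsg.Agent.Lib.Helper2.OrtDER2

open Matrix

universe u

theorem main : Cfsg.Agent.Lib.Helper37.OrtStmt.DiagSym.{u} →
    Cfsg.Agent.Lib.Helper37.OrtStmt.Der2.{u} := by
  intro hDS F _ _ r _ hr2 hrdvd n hn hn6
  classical
  have hr : r.Prime := Fact.out
  have hr3 : 3 ≤ r := by have := hr.two_le; omega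
  -- `ω` of order `r`
  obtain ⟨u, hu⟩ : ∃ u : Fˣ, orderOf u = r := by
    apply exists_prime_orderOf_dvd_card r
    rw [Fintype.card_units]; exact hrdvd
  obtain ⟨ω, hωdef⟩ : ∃ ω : F, ω = (u : F) := ⟨_, rfl⟩
  have hpow : ∀ k : ℕ, ω ^ k = 1 ↔ r ∣ k := by
    intro k
    rw [hωdef, ← Units.val_pow_eq_pow_val, Units.val_eq_one, ← orderOf_dvd_iff_pow_eq_one, hu]
  have hω0 : ω ≠ 0 := by rw [hωdef]; exact u.ne_zero
  have hωr : ω ^ r = 1 := (hpow r).2 dvd_rfl
  have hω1 : ω ≠ 1 := by
    intro h
    have h1 := (hpow 1).1 (by rw [pow_one]; exact h)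
    have := Nat.le_of_dvd one_pos h1
    omega
  -- the eigenvalues
  obtain ⟨lam, hlam⟩ : ∃ lam : Fin n → F, lam = fun j =>
      if j.val < 2 then ω else if j.val = 2 then ω ^ (r - 2) else 1 := ⟨_, rfl⟩
  have hlam01 : ∀ j : Fin n, j.val < 2 → lam j = ω := by
    intro j hj; rw [hlam]; simp only; rw [if_pos hj]
  have hlam2 : ∀ j : Fin n, j.val = 2 → lam j = ω ^ (r - 2) := by
    intro j hj; rw [hlam]; simp only; rw [if_neg (by omega), if_pos hj]
  have hlam3 : ∀ j : Fin n, 3 ≤ j.val → lam j = 1 := by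
    intro j hj; rw [hlam]; simp only; rw [if_neg (by omega), if_neg (by omega)]
  have hlam0 : ∀ j, lam j ≠ 0 := by
    intro j
    rcases lt_trichotomy j.val 2 with h | h | h
    · rw [hlam01 j h]; exact hω0
    · rw [hlam2 j h]; exact pow_ne_zero _ hω0
    · rw [hlam3 j (by omega)]; exact one_ne_zero
  have hlamr : ∀ j, lam j ^ r = 1 := by
    intro j
    rcases lt_trichotomy j.val 2 with h | h | h
    · rw [hlam01 j h]; exact hωr
    · rw [hlam2 j h, ← pow_mul, mul_comm, pow_mul, hωr, one_pow]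
    · rw [hlam3 j (by omega), one_pow]
  refine ⟨Matrix.diagonal lam, ?_, ?_, ?_, ?_⟩
  · -- determinant
    rw [Matrix.det_diagonal]
    obtain ⟨m, rfl⟩ : ∃ m, n = m + 3 := ⟨n - 3, by omega⟩
    rw [Fin.prod_univ_succ, Fin.prod_univ_succ, Fin.prod_univ_succ]
    rw [hlam01 0 (by simp), hlam01 (Fin.succ 0) (by simp), hlam2 (Fin.succ (Fin.succ 0)) (by simp)]
    have hrest : ∏ i : Fin m, lam i.succ.succ.succ = 1 := by
      apply Finset.prod_eq_one
      intro i _
      apply hlam3
      simp
    rw [hrest, mul_one]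
    have h2r : ω * (ω * ω ^ (r - 2)) = ω ^ (r - 2 + 2) := by rw [pow_add]; ring
    have : r - 2 + 2 = r := by omega
    rw [h2r, this, hωr]
  · -- order
    rw [Matrix.diagonal_pow]
    have : lam ^ r = fun _ => (1 : F) := by
      funext j; exact hlamr j
    rw [this]
    exact Matrix.diagonal_one
  · -- not scalar
    intro z hz
    have h0 := congrFun (congrFun hz ⟨0, by omega⟩) ⟨0, by omega⟩
    have h3 := congrFun (congrFun hz ⟨3, by omega⟩) ⟨3, by omega⟩
    simp only [Matrix.diagonal_apply_eq, Matrix.smul_apply, Matrix.one_apply_eq, smul_eq_mul,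
      mul_one] at h0 h3
    rw [hlam01 _ (by simp)] at h0
    rw [hlam3 _ (by simp)] at h3
    exact hω1 (h0.trans h3.symm)
  · intro S' c hS' hdet heq
    have hDS' := hDS F n (Matrix.diagonal lam) 1 S' lam c (by simp) hlam0 (by simp) hS' hdet heq
    by_cases hc : c = 1
    · -- `c = 1`: `ω⁻¹` is not an eigenvalue
      have h := hDS' ω
      have hpos : 0 < Nat.card {j : Fin n // lam j = ω} :=
        Nat.card_pos_iff.2 ⟨⟨⟨⟨0, by omega⟩, hlam01 _ (by simp)⟩⟩, inferInstance⟩
      rw [h] at hpos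
      obtain ⟨⟨j, hj⟩⟩ := (Nat.card_pos_iff.1 hpos).1
      rw [hc] at hj
      rcases lt_trichotomy j.val 2 with h' | h' | h'
      · rw [hlam01 j h', ← pow_two, hpow] at hj
        have := Nat.le_of_dvd two_pos hj
        omega
      · rw [hlam2 j h', ← pow_succ, hpow] at hj
        have := Nat.le_of_dvd (by omega) hj
        omega
      · rw [hlam3 j (by omega), one_mul] at hj
        exact hω1 hj
    · -- `c ≠ 1`
      have h := hDS' 1
      have hlt3 : ∀ j : {j : Fin n // lam j * 1 = c}, j.1.val < 3 := by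
        intro j
        by_contra hlt
        apply hc
        rw [← j.2, hlam3 j.1 (by omega), mul_one]
      obtain ⟨f, hf⟩ : ∃ f : {j : Fin n // lam j * 1 = c} → Fin 3, ∀ j, (f j).val = j.1.val :=
        ⟨fun j => ⟨j.1.val, hlt3 j⟩, fun j => rfl⟩
      have hfinj : Function.Injective f := by
        intro a b hab
        apply Subtype.ext
        apply Fin.ext
        rw [← hf a, ← hf b, hab]
      have hle : Nat.card {j : Fin n // lam j * 1 = c} ≤ 3 := by
        have := Nat.card_le_card_of_injective f hfinj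
        rwa [Nat.card_fin] at this
      obtain ⟨g, hg⟩ : ∃ g : Fin (n - 3) → {j : Fin n // lam j = 1},
          ∀ k, (g k).1.val = k.val + 3 :=
        ⟨fun k => ⟨⟨k.val + 3, by have := k.2; omega⟩, hlam3 _ (by simp)⟩, fun k => rfl⟩
      have hginj : Function.Injective g := by
        intro a b hab
        apply Fin.ext
        have := congrArg (fun z : {j : Fin n // lam j = 1} => z.1.val) hab
        simp only [hg] at this
        omega
      have hge : n - 3 ≤ Nat.card {j : Fin n // lam j = 1} := by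
        have := Nat.card_le_card_of_injective g hginj
        rwa [Nat.card_fin] at this
      have hn' : n = 6 := by omega
      have hcard : Nat.card (Fin 3) ≤ Nat.card {j : Fin n // lam j * 1 = c} := by
        rw [Nat.card_fin]; omega
      have hbij := Function.Injective.bijective_of_nat_card_le hfinj hcard
      obtain ⟨j0, hj0⟩ := hbij.2 ⟨0, by omega⟩
      obtain ⟨j2, hj2⟩ := hbij.2 ⟨2, by omega⟩
      have hv0 : j0.1.val = 0 := by rw [← hf j0, hj0]
      have hv2 : j2.1.val = 2 := by rw [← hf j2, hj2]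
      have e0 := j0.2
      have e2 := j2.2
      rw [hlam01 _ (by omega), mul_one] at e0
      rw [hlam2 _ hv2, mul_one] at e2
      have h3 : ω ^ 3 = 1 := by
        have : ω ^ 3 = ω ^ (r - 2) * ω ^ 2 := by
          rw [e2, ← e0]; ring
        rw [this, ← pow_add]
        have : r - 2 + 2 = r := by omega
        rw [this, hωr]
      have hr3' : r ∣ 3 := (hpow 3).1 h3
      have : r ≤ 3 := Nat.le_of_dvd (by omega) hr3'
      exact hn6 ⟨hn', by omega⟩

end Cfsg.Agent.Lib.Helper2.OrtDER2
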