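import Mathlib
import Cfsg.Agent.Lib.Helper37.OrtStmt

/-!
# S5981, piece NOUNIP: no orthogonal transvections among the similarities
-/

set_option autoImplicit false

namespace Cfsg.Agent.Lib.Helper2.OrtNOUNIP

open Matrix

universe u

theorem pow_vecMulVec {F : Type u} [Field F] {κ : Type} [Fintype κ] [DecidableEq κ]
    (w φ : κ → F) (j : ℕ) :
    (Matrix.vecMulVec w φ) ^ (j + 1) = (φ ⬝ᵥ w) ^ j • Matrix.vecMulVec w φ := by
  induction j with
  | zero => simp
  | succ j ih =>
    rw [pow_succ, ih, Matrix.smul_mul, Matrix.vecMulVec_mul_vecMulVec, pow_succ, mul_smul]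
    congr 1
    ext a b
    simp [Matrix.vecMulVec_apply]
    ring

/-- an isometry `U` of a non-degenerate symmetric form with `U - 1` nilpotent of rank at most
one is trivial (`2 ≠ 0`) -/
theorem rank_one_trivial {F : Type u} [Field F] {κ : Type} [Fintype κ] [DecidableEq κ]
    (G U : Matrix κ κ F) (w φ : κ → F) (k : ℕ) (h2 : (2 : F) ≠ 0) (hG : Gᵀ = G)
    (hdet : G.det ≠ 0) (hU : Uᵀ * G * U = G) (hR : U - 1 = Matrix.vecMulVec w φ)
    (hk : (U - 1) ^ k = 0) : U = 1 := by
  by_contra hne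
  have hR0 : Matrix.vecMulVec w φ ≠ 0 := by
    intro h0
    apply hne
    rw [h0] at hR
    exact sub_eq_zero.1 hR
  have hw : w ≠ 0 := fun h => hR0 (Matrix.vecMulVec_eq_zero.2 (Or.inl h))
  have hφ : φ ≠ 0 := fun h => hR0 (Matrix.vecMulVec_eq_zero.2 (Or.inr h))
  have hd : φ ⬝ᵥ w = 0 := by
    rw [hR] at hk
    cases k with
    | zero =>
      exfalso
      apply hR0
      have h1 : (1 : Matrix κ κ F) = 0 := by simpa using hk
      calc Matrix.vecMulVec w φ = Matrix.vecMulVec w φ * 1 := (mul_one _).symm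
        _ = 0 := by rw [h1, mul_zero]
    | succ j =>
      rw [pow_vecMulVec w φ j] at hk
      rcases smul_eq_zero.1 hk with h | h
      · exact eq_zero_of_pow_eq_zero h
      · exact absurd h hR0
  have hU1 : U = 1 + Matrix.vecMulVec w φ := by rw [← hR, add_sub_cancel]
  have hkey : (Matrix.vecMulVec w φ)ᵀ * G + G * Matrix.vecMulVec w φ +
      (Matrix.vecMulVec w φ)ᵀ * G * Matrix.vecMulVec w φ = 0 := by
    have h0 := hU
    rw [hU1, Matrix.transpose_add, Matrix.transpose_one] at h0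
    have h3 : (1 + (Matrix.vecMulVec w φ)ᵀ) * G * (1 + Matrix.vecMulVec w φ) =
        G + ((Matrix.vecMulVec w φ)ᵀ * G + G * Matrix.vecMulVec w φ +
          (Matrix.vecMulVec w φ)ᵀ * G * Matrix.vecMulVec w φ) := by noncomm_ring
    rw [h3] at h0
    exact add_eq_left.1 h0
  obtain ⟨g, hgdef⟩ : ∃ g : κ → F, g = G *ᵥ w := ⟨_, rfl⟩
  have hg : w ᵥ* G = g := by rw [hgdef, ← Matrix.mulVec_transpose, hG]
  rw [Matrix.transpose_vecMulVec, Matrix.vecMulVec_mul, hg, Matrix.mul_vecMulVec, ← hgdef,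
    Matrix.vecMulVec_mul_vecMulVec] at hkey
  obtain ⟨c, hc⟩ : ∃ c : F, c = g ⬝ᵥ w := ⟨_, rfl⟩
  rw [← hc] at hkey
  have hent : ∀ i j, φ i * g j + g i * φ j + φ i * (c * φ j) = 0 := by
    intro i j
    have h := congrFun (congrFun hkey i) j
    simp only [Matrix.add_apply, Matrix.vecMulVec_apply, Pi.smul_apply, smul_eq_mul,
      Matrix.zero_apply] at h
    exact h
  have hc0 : c = 0 := by
    have h1 : ∀ i, φ i * c = 0 := by
      intro i
      have h : ∑ j, (φ i * g j + g i * φ j + φ i * (c * φ j)) * w j = 0 :=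
        Finset.sum_eq_zero (fun j _ => by rw [hent i j, zero_mul])
      have h2 : ∑ j, (φ i * g j + g i * φ j + φ i * (c * φ j)) * w j =
          φ i * (g ⬝ᵥ w) + g i * (φ ⬝ᵥ w) + φ i * c * (φ ⬝ᵥ w) := by
        simp only [dotProduct, Finset.mul_sum, ← Finset.sum_add_distrib]
        refine Finset.sum_congr rfl fun j _ => by ring
      rw [h2, hd, ← hc] at h
      simpa using h
    obtain ⟨i, hi⟩ := Function.ne_iff.1 hφ
    rcases mul_eq_zero.1 (h1 i) with h | h
    · exact absurd h hi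
    · exact h
  have hent' : ∀ i j, φ i * g j + g i * φ j = 0 := by
    intro i j
    have h := hent i j
    rw [hc0] at h
    simpa using h
  have hg0 : g ≠ 0 := by
    intro h
    apply hw
    rw [hgdef] at h
    exact Matrix.eq_zero_of_mulVec_eq_zero hdet h
  obtain ⟨i, hi⟩ := Function.ne_iff.1 hg0
  have hφi : φ i = 0 := by
    have h := hent' i i
    have h' : (2 : F) * (φ i * g i) = 0 := by rw [← h]; ring
    rcases mul_eq_zero.1 h' with h'' | h''
    · exact absurd h'' h2
    · rcases mul_eq_zero.1 h'' with h3 | h3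
      · exact h3
      · exact absurd h3 hi
  apply hφ
  funext j
  have h := hent' j i
  rw [hφi, mul_zero, add_zero] at h
  rcases mul_eq_zero.1 h with h3 | h3
  · exact h3
  · exact absurd h3 hi

/-- a matrix of rank one is an outer product -/
theorem exists_vecMulVec_of_rank_one {F : Type u} [Field F] {n : ℕ}
    (M : Matrix (Fin n) (Fin n) F) (h : M.rank = 1) :
    ∃ w φ : Fin n → F, M = Matrix.vecMulVec w φ := by
  unfold Matrix.rank at h
  obtain ⟨v, -, hv⟩ := finrank_eq_one_iff'.1 h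
  have hcol : ∀ j : Fin n, ∃ c : F, c • (v : Fin n → F) = M *ᵥ Pi.single j 1 := by
    intro j
    obtain ⟨c, hc⟩ := hv ⟨M *ᵥ Pi.single j 1, ⟨Pi.single j 1, rfl⟩⟩
    exact ⟨c, congrArg Subtype.val hc⟩
  choose φ hφ using hcol
  refine ⟨(v : Fin n → F), φ, ?_⟩
  ext i j
  have h1 := congrFun (hφ j) i
  rw [Matrix.mulVec_single_one] at h1
  simp only [Pi.smul_apply, smul_eq_mul, Matrix.col_apply] at h1
  rw [Matrix.vecMulVec_apply, ← h1, mul_comm]

/-- powers of a similarity -/
theorem sim_pow {F : Type u} [Field F] {n : ℕ} (S y : Matrix (Fin n) (Fin n) F) (c : F)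
    (h : yᵀ * S * y = c • S) (k : ℕ) : (y ^ k)ᵀ * S * y ^ k = c ^ k • S := by
  induction k with
  | zero => simp
  | succ k ih =>
    rw [pow_succ, Matrix.transpose_mul]
    calc yᵀ * (y ^ k)ᵀ * S * (y ^ k * y) = yᵀ * ((y ^ k)ᵀ * S * y ^ k) * y := by
          simp only [Matrix.mul_assoc]
      _ = c ^ (k + 1) • S := by
          rw [ih, Matrix.mul_smul, Matrix.smul_mul, h, smul_smul, pow_succ]

theorem main : Cfsg.Agent.Lib.Helper37.OrtStmt.NoUnip.{u} := by
  intro F _ p _ _ hp2 n S y c hS hdet hy hyp hrank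
  have hp : p.Prime := Fact.out
  have h2 : (2 : F) ≠ 0 := by
    intro h
    have h' : ((2 : ℕ) : F) = 0 := by exact_mod_cast h
    rw [CharP.cast_eq_zero_iff F p] at h'
    exact hp2 ((Nat.prime_dvd_prime_iff_eq hp Nat.prime_two).1 h')
  -- `n` is positive
  have hn : Nonempty (Fin n) := by
    by_contra hemp
    rw [not_nonempty_iff] at hemp
    have h0 : (y - 1) = 0 := Subsingleton.elim _ _
    rw [h0, Matrix.rank_zero] at hrank
    exact zero_ne_one hrank
  have hS0 : S ≠ 0 := by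
    intro h
    rw [h, Matrix.det_zero] at hdet
    exact hdet rfl
  -- `c = 1`
  have hc : c = 1 := by
    have h1 := sim_pow S y c hy p
    rw [hyp, Matrix.transpose_one, Matrix.one_mul, Matrix.mul_one] at h1
    have h3 : (c ^ p - 1) • S = 0 := by rw [sub_smul, one_smul, ← h1, sub_self]
    have h4 : c ^ p - 1 = 0 := (smul_eq_zero.1 h3).resolve_right hS0
    have h5 : (c - 1) ^ p = 0 := by rw [sub_pow_char, one_pow]; exact h4
    exact sub_eq_zero.1 (eq_zero_of_pow_eq_zero h5)
  rw [hc, one_smul] at hy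
  obtain ⟨w, φ, hwφ⟩ := exists_vecMulVec_of_rank_one (y - 1) hrank
  have hpow : (y - 1) ^ p = 0 := by
    rw [sub_pow_char_of_commute p (Commute.one_right y), hyp, one_pow, sub_self]
  have hy1 := rank_one_trivial S y w φ p h2 hS hdet hy hwφ hpow
  rw [hy1, sub_self, Matrix.rank_zero] at hrank
  exact zero_ne_one hrank

end Cfsg.Agent.Lib.Helper2.OrtNOUNIP
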