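import Mathlib
import Cfsg.Agent.Lib.Helper27.OzStmt

/-!
Piece TISO of S5388: the centraliser of the image of the involution in the quotient by the
centre, modulo the image of `K`, is the commutator subgroup of the orthogonal group.
-/

set_option autoImplicit false

namespace Cfsg.Agent.Lib.Helper2.OzTISO

/-- the quotient map by the centre -/
abbrev piZ (A : Type) [Group A] : A →* A ⧸ Subgroup.center A :=
  QuotientGroup.mk' (Subgroup.center A)

/-- the centraliser of the image -/
abbrev cbZ (A : Type) [Group A] (t : A) : Subgroup (A ⧸ Subgroup.center A) :=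
  Subgroup.centralizer ({piZ A t} : Set (A ⧸ Subgroup.center A))

/-- generic form: centraliser modulo the centre -/
theorem tiso_gen {A O : Type} [Group A] [Group O] (t n : A) (K : Subgroup A) (Om : Subgroup O)
    (φ : ↥(Subgroup.centralizer ({t} : Set A)) →* O)
    (hcen : ∀ x : A, x ∈ Subgroup.center A ↔ x = 1 ∨ x = n)
    (hn : n ≠ 1)
    (hnc : ∀ g : A, g * t * g⁻¹ ≠ n * t)
    (hrange : φ.range = Om)
    (hker : ∀ g : ↥(Subgroup.centralizer ({t} : Set A)),
      φ g = 1 ↔ ((g : A) ∈ K ∨ n * (g : A) ∈ K))
    (Q : Subgroup ↥(cbZ A t))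
    (hQ : Q = (K.map (piZ A)).subgroupOf (cbZ A t))
    [hN : Q.Normal] :
    Nonempty (↥(cbZ A t) ⧸ Q ≃* ↥Om) := by
  classical
  have hnZ : n ∈ Subgroup.center A := (hcen n).2 (Or.inr rfl)
  have hncomm : ∀ x : A, x * n = n * x := fun x => (Subgroup.mem_center_iff.1 hnZ x)
  have hnn : n * n = 1 := by
    have h := (hcen (n * n)).1 (Subgroup.mul_mem _ hnZ hnZ)
    rcases h with h | h
    · exact h
    · exfalso; apply hn
      have : n * n = n * 1 := by rw [mul_one]; exact h
      exact mul_left_cancel this
  -- the map from the centraliser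
  have hmem : ∀ g : ↥(Subgroup.centralizer ({t} : Set A)),
      ((piZ A).comp (Subgroup.subtype _)) g ∈ cbZ A t := by
    intro g
    rw [Subgroup.mem_centralizer_iff]
    intro h hh
    rw [Set.mem_singleton_iff] at hh
    subst hh
    have hg := Subgroup.mem_centralizer_iff.1 g.2 t (Set.mem_singleton t)
    show piZ A t * piZ A (g : A) = piZ A (g : A) * piZ A t
    rw [← map_mul, ← map_mul, hg]
  let ψ0 : ↥(Subgroup.centralizer ({t} : Set A)) →* ↥(cbZ A t) :=
    ((piZ A).comp (Subgroup.subtype _)).codRestrict (cbZ A t) hmem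
  let ψ : ↥(Subgroup.centralizer ({t} : Set A)) →* ↥(cbZ A t) ⧸ Q := (QuotientGroup.mk' Q).comp ψ0
  have hsurj : Function.Surjective ψ := by
    intro y
    obtain ⟨x, rfl⟩ := QuotientGroup.mk_surjective y
    obtain ⟨xb, hxb⟩ := x
    obtain ⟨g, rfl⟩ := QuotientGroup.mk_surjective xb
    have h1 := Subgroup.mem_centralizer_iff.1 hxb (piZ A t) (Set.mem_singleton _)
    have h2 : piZ A (t * g) = piZ A (g * t) := by rw [map_mul, map_mul]; exact h1
    have h3 : (t * g)⁻¹ * (g * t) ∈ Subgroup.center A := by
      have := (QuotientGroup.eq (s := Subgroup.center A) (a := t * g) (b := g * t)).1 h2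
      exact this
    have h4 := (hcen _).1 h3
    have hg : g ∈ Subgroup.centralizer ({t} : Set A) := by
      rw [Subgroup.mem_centralizer_iff]
      intro h hh
      rw [Set.mem_singleton_iff] at hh
      subst hh
      rcases h4 with h4 | h4
      · have : g * h = h * g := by
          have := congrArg (fun z => (h * g) * z) h4
          simpa [mul_assoc] using this
        exact this.symm
      · exfalso
        apply hnc g
        have h5 : g * h = (h * g) * n := by
          have := congrArg (fun z => (h * g) * z) h4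
          simpa [mul_assoc] using this
        have h6 : g * h * g⁻¹ = h * n := by
          rw [h5, mul_assoc h g n, hncomm g, ← mul_assoc h n g, mul_assoc, mul_inv_cancel, mul_one]
        rw [h6, hncomm]
    refine ⟨⟨g, hg⟩, ?_⟩
    rfl
  have hkerψ : ψ.ker = φ.ker := by
    ext g
    rw [MonoidHom.mem_ker, MonoidHom.mem_ker, hker g]
    show (QuotientGroup.mk' Q) (ψ0 g) = 1 ↔ _
    rw [QuotientGroup.mk'_apply, QuotientGroup.eq_one_iff, hQ, Subgroup.mem_subgroupOf]
    show piZ A (g : A) ∈ K.map (piZ A) ↔ _
    rw [Subgroup.mem_map]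
    constructor
    · rintro ⟨k, hk, hkg⟩
      have h3 : k⁻¹ * (g : A) ∈ Subgroup.center A :=
        (QuotientGroup.eq (s := Subgroup.center A) (a := k) (b := (g : A))).1 hkg
      rcases (hcen _).1 h3 with h4 | h4
      · left
        have : (g : A) = k := by
          have := congrArg (fun z => k * z) h4
          simpa using this
        rw [this]; exact hk
      · right
        have : (g : A) = k * n := by
          have := congrArg (fun z => k * z) h4
          simpa using this
        rw [this, hncomm k, ← mul_assoc, hnn, one_mul]; exact hk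
    · rintro (h | h)
      · exact ⟨(g : A), h, rfl⟩
      · refine ⟨n * (g : A), h, ?_⟩
        apply (QuotientGroup.eq (s := Subgroup.center A) (a := n * (g : A)) (b := (g : A))).2
        have : (n * (g : A))⁻¹ * (g : A) = n := by
          have hni : n⁻¹ = n := inv_eq_of_mul_eq_one_left hnn
          rw [mul_inv_rev, hni, mul_assoc, ← hncomm, ← mul_assoc, inv_mul_cancel, one_mul]
        rw [this]; exact hnZ
  have e1 : ↥(Subgroup.centralizer ({t} : Set A)) ⧸ ψ.ker ≃* ↥(cbZ A t) ⧸ Q :=
    QuotientGroup.quotientKerEquivOfSurjective ψ hsurj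
  have e2 : ↥(Subgroup.centralizer ({t} : Set A)) ⧸ φ.ker ≃* ↥φ.range :=
    QuotientGroup.quotientKerEquivRange φ
  have e3 : ↥(Subgroup.centralizer ({t} : Set A)) ⧸ ψ.ker ≃*
      ↥(Subgroup.centralizer ({t} : Set A)) ⧸ φ.ker :=
    QuotientGroup.quotientMulEquivOfEq hkerψ
  have e4 : ↥φ.range ≃* ↥Om := MulEquiv.subgroupCongr hrange
  exact ⟨e1.symm.trans (e3.trans (e2.trans e4))⟩

theorem main : Cfsg.Agent.Lib.Helper27.OzStmt.TIso := by
  intro A _ _ t n K φ hctx hN
  exact tiso_gen (A := A) t n K Cfsg.Agent.Lib.Helper27.OzStmt.Om8 φ hctx.center hctx.n_ne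
    hctx.not_conj hctx.range hctx.ker (Cfsg.Agent.Lib.Helper27.OzStmt.Qbar A t K) rfl (hN := hN)

end Cfsg.Agent.Lib.Helper2.OzTISO
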