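import Mathlib
import Cfsg.Agent.Lib.Helper46.PsuStmt

set_option autoImplicit false

/-!
# S5172 piece DCTP: `DataCent` from `CenterScalar`, `ScalarOne`, `CentW`, `CentC`
-/

namespace Cfsg.Agent.Lib.Helper2.PsuDCTP

open Matrix Cfsg.Agent.Lib.Helper43.SUBase Cfsg.Agent.H84.PslDefs
  Cfsg.Agent.Lib.Helper46.PsuDefs Cfsg.Agent.Lib.Helper46.PsuStmt

universe u

theorem core (hZ0 : CenterScalar.{u}) (hZ1 : ScalarOne.{u})
    (n : ℕ) (K : Type u) [Field K] [Fintype K] (q : ℕ) (D : QD K q) (hn : 4 ≤ n)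
    (Q : Subgroup (SpecialLinearGroup (Fin n) K)) (hQ : Q ≤ UJ D n)
    (hC : ∀ g ∈ GJ D n, (∀ r ∈ Q, g * r = r * g) →
      ∃ c : K, ∃ r0 ∈ Q, ∀ i j : Fin n, g i j = c * r0 i j)
    (g : PGJ D n) (hg : ∀ r ∈ (Q.subgroupOf (GJ D n)).map (prJ D n), g * r = r * g) :
    g ∈ (Q.subgroupOf (GJ D n)).map (prJ D n) := by
  obtain ⟨g', rfl⟩ := prJ_surjective D n g
  have hcomm : ∀ r ∈ Q, (g' : SpecialLinearGroup (Fin n) K) * r = r * g' := by
    intro r hr
    have hrU : r ∈ UJ D n := hQ hr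
    have hrG : r ∈ GJ D n := UJ_le_GJ D n hrU
    have hrUni : r ∈ Uni n K := by
      have := hrU
      rw [UJ, Subgroup.mem_inf] at this
      exact this.2
    have h1 : prJ D n g' * prJ D n ⟨r, hrG⟩ = prJ D n ⟨r, hrG⟩ * prJ D n g' :=
      hg _ ⟨⟨r, hrG⟩, by simpa [Subgroup.mem_subgroupOf] using hr, rfl⟩
    have hz : g' * ⟨r, hrG⟩ * g'⁻¹ * (⟨r, hrG⟩ : ↥(GJ D n))⁻¹ ∈ Subgroup.center ↥(GJ D n) := by
      rw [← ker_prJ D n, MonoidHom.mem_ker]
      simp only [map_mul, map_inv]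
      rw [h1]; group
    have hzc : ∀ x ∈ GJ D n, x * ((g' : SpecialLinearGroup (Fin n) K) * r * (g' : SpecialLinearGroup (Fin n) K)⁻¹ * r⁻¹)
        = ((g' : SpecialLinearGroup (Fin n) K) * r * (g' : SpecialLinearGroup (Fin n) K)⁻¹ * r⁻¹) * x := by
      intro x hx
      have := (Subgroup.mem_center_iff.mp hz) ⟨x, hx⟩
      have h2 := congrArg Subtype.val this
      simpa using h2
    have hzG : (g' : SpecialLinearGroup (Fin n) K) * r * (g' : SpecialLinearGroup (Fin n) K)⁻¹ * r⁻¹ ∈ GJ D n :=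
      (GJ D n).mul_mem ((GJ D n).mul_mem ((GJ D n).mul_mem g'.2 hrG) ((GJ D n).inv_mem g'.2))
        ((GJ D n).inv_mem hrG)
    obtain ⟨c, hc⟩ := hZ0 n K q D hn _ hzG hzc
    -- g' r g'⁻¹ = z * r, entries c * r i j
    have hent : ∀ i j : Fin n,
        ((g' : SpecialLinearGroup (Fin n) K) * r * (g' : SpecialLinearGroup (Fin n) K)⁻¹) i j = c * r i j := by
      intro i j
      have e1 : (g' : SpecialLinearGroup (Fin n) K) * r * (g' : SpecialLinearGroup (Fin n) K)⁻¹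
          = ((g' : SpecialLinearGroup (Fin n) K) * r * (g' : SpecialLinearGroup (Fin n) K)⁻¹ * r⁻¹) * r := by group
      rw [e1, Matrix.SpecialLinearGroup.coe_mul, Matrix.mul_apply]
      rw [Finset.sum_eq_single i]
      · rw [hc i i, if_pos rfl]
      · intro k _ hk
        rw [hc i k, if_neg (Ne.symm hk), zero_mul]
      · intro h; exact absurd (Finset.mem_univ i) h
    have hc1 : c = 1 := hZ1 n K (by omega) _ r r hrUni hrUni c hent
    have hz1 : (g' : SpecialLinearGroup (Fin n) K) * r * (g' : SpecialLinearGroup (Fin n) K)⁻¹ = r := by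
      apply Matrix.SpecialLinearGroup.ext
      intro i j
      rw [hent i j, hc1, one_mul]
    calc (g' : SpecialLinearGroup (Fin n) K) * r
        = ((g' : SpecialLinearGroup (Fin n) K) * r * (g' : SpecialLinearGroup (Fin n) K)⁻¹) * g' := by group
      _ = r * g' := by rw [hz1]
  obtain ⟨c, r0, hr0, hgc⟩ := hC g' g'.2 hcomm
  have hr0G : r0 ∈ GJ D n := UJ_le_GJ D n (hQ hr0)
  -- s = g' * r0⁻¹ is scalar
  have hs : (((g' : SpecialLinearGroup (Fin n) K) * r0⁻¹ : SpecialLinearGroup (Fin n) K) :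
      Matrix (Fin n) (Fin n) K) = c • (1 : Matrix (Fin n) (Fin n) K) := by
    have h1 : ((g' : SpecialLinearGroup (Fin n) K) : Matrix (Fin n) (Fin n) K)
        = c • (r0 : Matrix (Fin n) (Fin n) K) := by
      ext i j
      rw [Matrix.smul_apply, smul_eq_mul]
      exact hgc i j
    rw [Matrix.SpecialLinearGroup.coe_mul, h1, Matrix.smul_mul, ← Matrix.SpecialLinearGroup.coe_mul,
      mul_inv_cancel, Matrix.SpecialLinearGroup.coe_one]
  have key : ∀ (s x : SpecialLinearGroup (Fin n) K),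
      (s : Matrix (Fin n) (Fin n) K) = c • (1 : Matrix (Fin n) (Fin n) K) → x * s = s * x := by
    intro s x hs'
    apply Matrix.SpecialLinearGroup.ext
    intro i j
    have : ((x * s : SpecialLinearGroup (Fin n) K) : Matrix (Fin n) (Fin n) K)
        = ((s * x : SpecialLinearGroup (Fin n) K) : Matrix (Fin n) (Fin n) K) := by
      rw [Matrix.SpecialLinearGroup.coe_mul, Matrix.SpecialLinearGroup.coe_mul, hs',
        Matrix.mul_smul, Matrix.smul_mul, Matrix.mul_one, Matrix.one_mul]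
    exact congrFun (congrFun this i) j
  have hsc : g' * (⟨r0, hr0G⟩ : ↥(GJ D n))⁻¹ ∈ Subgroup.center ↥(GJ D n) := by
    rw [Subgroup.mem_center_iff]
    intro x
    apply Subtype.ext
    exact key ((g' : SpecialLinearGroup (Fin n) K) * r0⁻¹) (x : SpecialLinearGroup (Fin n) K) hs
  refine ⟨⟨r0, hr0G⟩, by simpa [Subgroup.mem_subgroupOf] using hr0, ?_⟩
  have hk : prJ D n (g' * (⟨r0, hr0G⟩ : ↥(GJ D n))⁻¹) = 1 := by
    rw [← MonoidHom.mem_ker, ker_prJ]; exact hsc
  rw [map_mul, map_inv, mul_inv_eq_one] at hk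
  exact hk.symm

theorem main : DataCentOfParts.{u} := by
  intro hZ0 hZ1 hW hC n K _ _ q D hn R hR g hg
  rcases hR with rfl | hR
  · exact core hZ0 hZ1 n K q D hn (QW D n) (QW_le_UJ D n) (hW n K q D hn) g hg
  · rw [Set.mem_singleton_iff] at hR
    subst hR
    exact core hZ0 hZ1 n K q D hn (RC D n) (RC_le_UJ D n) (hC n K q D hn) g hg

end Cfsg.Agent.Lib.Helper2.PsuDCTP
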