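import Mathlib
import Cfsg.Agent.Lib.Helper42.ReeAutStmt

set_option autoImplicit false

namespace Cfsg.Agent.Lib.Helper2.ReeAutCARD

universe v

theorem main : Cfsg.Agent.Lib.Helper42.ReeAutStmt.CardP.{v} := by
  intro F _ _ m hF
  haveI : Fact (Nat.Prime 3) := ⟨Nat.prime_three⟩
  have hchar : CharP F 3 := by
    obtain ⟨p, hp⟩ := CharP.exists F
    haveI := hp
    haveI : Fact p.Prime := ⟨CharP.char_is_prime F p⟩
    obtain ⟨n, hn⟩ := FiniteField.card F p
    have h1 : p ∣ 3 ^ (2 * m + 1) := by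
      rw [← hF, hn.2]
      exact dvd_pow_self p n.ne_zero
    have h2 : p = 3 := (Nat.prime_dvd_prime_iff_eq (CharP.char_is_prime F p) Nat.prime_three).mp
      ((CharP.char_is_prime F p).dvd_of_dvd_pow h1)
    rw [← h2]; exact hp
  let _ : Algebra (ZMod 3) F := ZMod.algebra F 3
  have h := IsGalois.card_aut_eq_finrank (ZMod 3) F
  have e : Nat.card (F ≃+* F) = Nat.card (F ≃ₐ[ZMod 3] F) := by
    apply Nat.card_congr
    refine
      { toFun := fun σ => AlgEquiv.ofRingEquiv (f := σ) (fun x => ?_)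
        invFun := fun σ => σ.toRingEquiv
        left_inv := fun σ => by ext x; rfl
        right_inv := fun σ => by ext x; rfl }
    have hh : (σ : F →+* F).comp (algebraMap (ZMod 3) F) = algebraMap (ZMod 3) F :=
      Subsingleton.elim _ _
    exact RingHom.congr_fun hh x
  rw [e, h]
  have h3 := Module.card_eq_pow_finrank (K := ZMod 3) (V := F)
  rw [hF, ZMod.card] at h3
  exact (Nat.pow_right_injective (by norm_num : 2 ≤ 3) h3).symm

end Cfsg.Agent.Lib.Helper2.ReeAutCARD
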