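import Mathlib
import Cfsg.Agent.Lib.Helper42.ReeAutStmt

set_option autoImplicit false

namespace Cfsg.Agent.Lib.Helper2.ReeAutSYLA

open Cfsg.Agent.Lib.Helper42.ReeSpStmt Cfsg.Agent.Lib.Helper42.ReeAutStmt
open scoped Pointwise

universe u v

theorem fac (m : ℕ) :
    (3 ^ ((2 * m + 1) * 3) * ((3 ^ (2 * m + 1) - 1) * ((3 ^ (2 * m + 1)) ^ 3 + 1))).factorization 3
      = (2 * m + 1) * 3 := by
  obtain ⟨k, hk, hk1⟩ : ∃ k, 3 ^ (2 * m + 1) = 3 * k ∧ 1 ≤ k :=
    ⟨3 ^ (2 * m), by rw [pow_succ]; ring, Nat.one_le_pow _ _ (by norm_num)⟩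
  have h1 : ¬ 3 ∣ (3 ^ (2 * m + 1) - 1) * ((3 ^ (2 * m + 1)) ^ 3 + 1) := by
    intro h
    rcases (Nat.Prime.dvd_mul Nat.prime_three).mp h with h | h
    · rw [hk] at h; omega
    · rw [hk] at h
      have e1 : (3 * k) ^ 3 + 1 = 3 * (9 * k ^ 3) + 1 := by ring
      rw [e1] at h; omega
  have hne : (3 ^ (2 * m + 1) - 1) * ((3 ^ (2 * m + 1)) ^ 3 + 1) ≠ 0 := by
    intro h0; rw [h0] at h1; exact h1 (dvd_zero 3)
  rw [Nat.factorization_mul (by positivity) hne, Nat.Prime.factorization_pow Nat.prime_three,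
    Finsupp.add_apply, Nat.factorization_eq_zero_of_not_dvd h1]
  simp

theorem main : SylAP.{u, v} := by
  intro G _ _ U H A K _ _ m ax α
  haveI : Fact (Nat.Prime 3) := ⟨Nat.prime_three⟩
  have hcardG : Nat.card G =
      3 ^ ((2 * m + 1) * 3) * ((3 ^ (2 * m + 1) - 1) * ((3 ^ (2 * m + 1)) ^ 3 + 1)) := by
    rw [ax.card, pow_mul]; ring
  have hfac : (Nat.card G).factorization 3 = (2 * m + 1) * 3 := by rw [hcardG, fac]
  have hU : Nat.card U = 3 ^ (Nat.card G).factorization 3 := by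
    rw [hfac, ax.cardU, pow_mul]
  have hU' : Nat.card (U.map α.toMonoidHom) = 3 ^ (Nat.card G).factorization 3 := by
    rw [Subgroup.card_map_of_injective α.injective, hU]
  obtain ⟨g, hg⟩ := MulAction.exists_smul_eq G (Sylow.ofCard (U.map α.toMonoidHom) hU')
    (Sylow.ofCard U hU)
  refine ⟨g⁻¹, fun u hu => ?_⟩
  have h1 : α u ∈ U.map α.toMonoidHom := Subgroup.mem_map_of_mem _ hu
  have h2 : MulAut.conj g • α u ∈ MulAut.conj g • (U.map α.toMonoidHom) :=
    Subgroup.smul_mem_pointwise_smul _ _ _ h1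
  have h3 : MulAut.conj g • (U.map α.toMonoidHom) = U := by
    have := congrArg (fun P : Sylow 3 G => (P : Subgroup G)) hg
    simpa [Sylow.coe_subgroup_smul, Sylow.coe_ofCard] using this
  rw [h3] at h2
  simpa [MulAut.smul_def] using h2

end Cfsg.Agent.Lib.Helper2.ReeAutSYLA
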