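import Mathlib
import Cfsg.Agent.Lib.Helper42.ReeAutStmt
import Cfsg.Agent.Lib.Helper2.ReeAutSYLA

set_option autoImplicit false

namespace Cfsg.Agent.Lib.Helper2.ReeAutGEOC

open Cfsg.Agent.Lib.Helper42.ReeSpStmt Cfsg.Agent.Lib.Helper42.ReeAutStmt

universe u v

section basics

variable {G : Type u} [Group G] {U : Subgroup G}

theorem NU_mul {a b : G} (ha : NU U a) (hb : NU U b) : NU U (a * b) := by
  intro u hu
  have h1 := ha _ (hb u hu)
  have e1 : a * b * u * (a * b)⁻¹ = a * (b * u * b⁻¹) * a⁻¹ := by group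
  rw [e1]; exact h1

theorem NU_pow {a : G} (ha : NU U a) (k : ℕ) : NU U (a ^ k) := by
  induction k with
  | zero => intro u hu; simpa using hu
  | succ k ih => rw [pow_succ]; exact NU_mul ih ha

theorem NU_inv [Finite G] {a : G} (ha : NU U a) : NU U a⁻¹ := by
  have h1 : a ^ (orderOf a - 1) = a⁻¹ := by
    apply eq_inv_of_mul_eq_one_left
    rw [← pow_succ, Nat.sub_add_cancel (orderOf_pos a), pow_orderOf_eq_one]
  rw [← h1]; exact NU_pow ha _

theorem NU_of_mem {a : G} (ha : a ∈ U) : NU U a :=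
  fun u hu => U.mul_mem (U.mul_mem ha hu) (U.inv_mem ha)

theorem mem_normalizer_of_NU [Finite G] {a : G} (ha : NU U a) :
    a ∈ Subgroup.normalizer (U : Set G) := by
  rw [Subgroup.mem_normalizer_iff]
  intro h
  constructor
  · exact ha h
  · intro hh
    have h1 := NU_inv ha _ hh
    have e1 : a⁻¹ * (a * h * a⁻¹) * a⁻¹⁻¹ = h := by group
    rw [e1] at h1; exact h1

end basics

/-- a `3`-element normalizing `U` lies in `U` -/
theorem mem_of_three {G : Type u} [Group G] [Finite G] (U H A : Subgroup G) (K : Type v) [Field K]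
    [Fintype K] (m : ℕ) (ax : Ax G U H A K m) {w : G} (hw : NU U w) (hw9 : w ^ 9 = 1) : w ∈ U := by
  haveI : Fact (Nat.Prime 3) := ⟨Nat.prime_three⟩
  have hcardG : Nat.card G =
      3 ^ ((2 * m + 1) * 3) * ((3 ^ (2 * m + 1) - 1) * ((3 ^ (2 * m + 1)) ^ 3 + 1)) := by
    rw [ax.card, pow_mul]; ring
  have hfac : (Nat.card G).factorization 3 = (2 * m + 1) * 3 := by
    rw [hcardG, Cfsg.Agent.Lib.Helper2.ReeAutSYLA.fac]
  have hU : Nat.card U = 3 ^ (Nat.card G).factorization 3 := by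
    rw [hfac, ax.cardU, pow_mul]
  have hPw : IsPGroup 3 (Subgroup.zpowers w) := by
    have h1 : orderOf w ∣ 3 ^ 2 := orderOf_dvd_of_pow_eq_one (by norm_num; exact hw9)
    obtain ⟨k, _, hk⟩ := (Nat.dvd_prime_pow Nat.prime_three).mp h1
    exact IsPGroup.of_card (n := k) (by rw [Nat.card_zpowers, hk])
  have hPU : IsPGroup 3 U := IsPGroup.of_card hU
  have hle : Subgroup.zpowers w ≤ Subgroup.normalizer (U : Set G) := by
    rw [Subgroup.zpowers_le]; exact mem_normalizer_of_NU hw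
  have hsup := IsPGroup.to_sup_of_normal_right' hPw hPU hle
  have h2 := (Sylow.ofCard U hU).is_maximal' hsup (by rw [Sylow.coe_ofCard]; exact le_sup_right)
  rw [Sylow.coe_ofCard] at h2
  have h3 : w ∈ Subgroup.zpowers w ⊔ U := Subgroup.mem_sup_left (Subgroup.mem_zpowers w)
  rw [h2] at h3; exact h3

theorem main : GeoCP.{u, v} := by
  intro G _ _ U H A K _ _ m ax syl n hn hnH g hg hg'
  obtain ⟨u, hu, h, hh, rfl⟩ := syl.2.1 g (mem_normalizer_of_NU hg)
  have hNh : NU U h := fun x hx => ax.normH h hh x hx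
  have hNh' : NU U (n⁻¹ * h * n) := fun x hx => ax.normH _ (hnH h hh) x hx
  -- w = n⁻¹ u n normalizes U
  have hw : NU U (n⁻¹ * u * n) := by
    have h1 := NU_mul hg' (NU_inv hNh')
    have e1 : n⁻¹ * (u * h) * n * (n⁻¹ * h * n)⁻¹ = n⁻¹ * u * n := by group
    rw [e1] at h1; exact h1
  have hw9 : (n⁻¹ * u * n) ^ 9 = 1 := by
    have e1 : n⁻¹ * u * n = n⁻¹ * u * n⁻¹⁻¹ := by rw [inv_inv]
    rw [e1, conj_pow, ax.exp9 u hu]; group
  have hwU : n⁻¹ * u * n ∈ U := mem_of_three U H A K m ax hw hw9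
  have hu1 : u = 1 := by
    by_contra hne
    apply hn
    have h1 : NU U n⁻¹ := ax.ti n⁻¹ ⟨u, hu, hne, by rw [inv_inv]; exact hwU⟩
    have h2 := NU_inv h1
    rwa [inv_inv] at h2
  rw [hu1, one_mul]; exact hh

end Cfsg.Agent.Lib.Helper2.ReeAutGEOC
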