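import Mathlib
import Cfsg.Agent.Lib.Helper83.S38Stmt
import Cfsg.Agent.Lib.Helper23.TypeP
import Cfsg.Agent.Lib.Helper2.Split

set_option autoImplicit false

/-! S1538 piece NOT34: a maximal subgroup with Type II data is not of Type III or IV. -/

namespace Cfsg.Agent.Lib.Helper2.S38NOT34

open scoped Pointwise
open Cfsg.Agent.Lib.Helper83

universe u

/-- two type-P data of `M`: if `N_G(U') ≤ M` then `N_G(U) ≤ M` (complements of `M_F` in `M'` are
conjugate under `M_F`). -/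
theorem core {G : Type u} [Group G] [Finite G] (M W₁ U W₂ W₁' U' W₂' : Subgroup G)
    (hG : Cfsg.IsMinSimpleOddOrder G) (hM : IsCoatom M)
    (hP : Cfsg.IsTypePWith M W₁ U W₂) (hP' : Cfsg.IsTypePWith M W₁' U' W₂')
    (hN' : Subgroup.normalizer (U' : Set G) ≤ M) : Subgroup.normalizer (U : Set G) ≤ M := by
  have hc := hP.U_compl
  have hc' := hP'.U_compl
  have hM'M : ⁅M, M⁆ ≤ M := hP.W₁_compl.1
  have hHM : Cfsg.fittingHallOf M ≤ M := hc.1.trans hM'M
  have hsolvM : Group.IsSolvable M := hG.2.2.2 M hM.1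
  have hsolv : Group.IsSolvable (Cfsg.fittingHallOf M) :=
    Group.isSolvable_of_isSolvable_injective (f := Subgroup.inclusion hHM) (Subgroup.inclusion_injective hHM)
  have hnorm : M ≤ Subgroup.normalizer ((Cfsg.fittingHallOf M : Subgroup G) : Set G) := by
    intro g hg
    rw [Subgroup.mem_normalizer_iff]
    intro x
    constructor
    · rintro ⟨y, hy, rfl⟩
      exact ⟨⟨g, hg⟩ * y * ⟨g, hg⟩⁻¹, (Cfsg.fittingHall_normal M).conj_mem y hy _, rfl⟩
    · rintro ⟨y, hy, hyx⟩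
      refine ⟨⟨g, hg⟩⁻¹ * y * ⟨g, hg⟩, ?_, ?_⟩
      · have h := (Cfsg.fittingHall_normal M).conj_mem y hy ⟨g, hg⟩⁻¹
        simpa using h
      · have hyx' : (y : G) = g * x * g⁻¹ := hyx
        show g⁻¹ * (y : G) * g = x
        rw [hyx']
        group
  have hcard : Nat.card (Cfsg.fittingHallOf M) * Nat.card U = Nat.card (⁅M, M⁆ : Subgroup G) :=
    (Cfsg.Agent.Lib.Helper23.TypeP.card_of_isComplIn hc).symm
  have hcard' : Nat.card (Cfsg.fittingHallOf M) * Nat.card U' = Nat.card (⁅M, M⁆ : Subgroup G) :=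
    (Cfsg.Agent.Lib.Helper23.TypeP.card_of_isComplIn hc').symm
  have hcop : (Nat.card (Cfsg.fittingHallOf M)).Coprime (Nat.card U) :=
    (Cfsg.Agent.Lib.Helper23.TypeP.coprime_card_fittingHallOf M U (hc.2.1.trans hM'M)
      hc.2.2.1).symm
  obtain ⟨m, hm, hmU⟩ := Cfsg.Agent.Lib.Helper2.Split.conj_compl (Cfsg.fittingHallOf M) ⁅M, M⁆
    U U' hc.1 (hM'M.trans hnorm) hsolv hc.2.1 hc'.2.1 hc.2.2.1 hc'.2.2.1 hcard hcard' hcop
  have key : ∀ x, x ∈ U' ↔ m⁻¹ * x * m ∈ U := by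
    intro x
    rw [← hmU, Subgroup.mem_pointwise_smul_iff_inv_smul_mem]
    simp [MulAut.smul_def]
  intro g hg
  have hmM : m ∈ M := hHM hm
  have hgU := Subgroup.mem_normalizer_iff.1 hg
  have h1 : m * g * m⁻¹ ∈ Subgroup.normalizer (U' : Set G) := by
    rw [Subgroup.mem_normalizer_iff]
    intro x
    show x ∈ U' ↔ m * g * m⁻¹ * x * (m * g * m⁻¹)⁻¹ ∈ U'
    rw [key, key]
    have e : m⁻¹ * (m * g * m⁻¹ * x * (m * g * m⁻¹)⁻¹) * m = g * (m⁻¹ * x * m) * g⁻¹ := by group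
    rw [e]
    exact hgU (m⁻¹ * x * m)
  have h2 := hN' h1
  have e2 : g = m⁻¹ * (m * g * m⁻¹) * m := by group
  rw [e2]
  exact M.mul_mem (M.mul_mem (M.inv_mem hmM) h2) hmM

theorem main : S38Stmt.Not34.{u} := by
  intro G _ _ M W₁ U W₂ ctx
  constructor
  · rintro ⟨W₁', U', W₂', hP', -, -, -, -, hN'⟩
    exact ctx.hN (core M W₁ U W₂ W₁' U' W₂' ctx.hG ctx.hM ctx.hP hP' hN')
  · rintro ⟨W₁', U', W₂', hP', -, -, -, -, hN'⟩
    exact ctx.hN (core M W₁ U W₂ W₁' U' W₂' ctx.hG ctx.hM ctx.hP hP' hN')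

end Cfsg.Agent.Lib.Helper2.S38NOT34
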