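import Mathlib
import Cfsg.Agent.Lib.Helper55.S66Stmt
import Cfsg.Agent.Lib.Helper39.PGA

/-!
Piece HALLGE of S1366: in a solvable subgroup, a `π`-subgroup lies in a Hall `π`-subgroup.
-/

set_option autoImplicit false

namespace Cfsg.Agent.Lib.Helper2.S66HALLGE

open Cfsg.Agent.Lib.Helper55.S66Stmt

universe u

theorem main : HallGe.{u} := by
  intro G _ _ π H X hsol hXH hXπ
  obtain ⟨L, hL⟩ := Cfsg.Agent.Lib.Helper39.PGA.exists_isHallIn (G := ↥H) hsol ⊤
    (fun t => t ∈ π)
  have hXπ' : ∀ t : ℕ, t.Prime → t ∣ Nat.card (X.subgroupOf H) → t ∈ π := by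
    intro t ht htd
    rw [Nat.card_congr (Subgroup.subgroupOfEquivOfLe hXH).toEquiv] at htd
    exact hXπ t ht htd
  obtain ⟨c, -, hc⟩ := hL.conj (X.subgroupOf H) le_top hXπ'
  obtain ⟨L', hL'⟩ : ∃ L' : Subgroup ↥H, L' = L.map (MulAut.conj c⁻¹).toMonoidHom := ⟨_, rfl⟩
  have hcardL' : Nat.card L' = Nat.card L := by
    rw [hL']
    exact Subgroup.card_map_of_injective (MulAut.conj c⁻¹).injective
  have hcardK2 : Nat.card (L'.map H.subtype) = Nat.card L := by
    rw [Subgroup.card_map_of_injective (Subgroup.subtype_injective H), hcardL']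
  have hK2H : L'.map H.subtype ≤ H := Subgroup.map_subtype_le L'
  refine ⟨L'.map H.subtype, ⟨hK2H, ?_, ?_⟩, ?_⟩
  · intro p hp hpd
    rw [hcardK2] at hpd
    exact hL.pi p hp hpd
  · intro p hp hpπ hpd
    have hfac := hL.fac p hp hpπ
    rw [Subgroup.card_top] at hfac
    have hmul : Nat.card (L'.map H.subtype) * (L'.map H.subtype).relIndex H = Nat.card H := by
      have h1 := Subgroup.card_mul_index ((L'.map H.subtype).subgroupOf H)
      rwa [Nat.card_congr (Subgroup.subgroupOfEquivOfLe hK2H).toEquiv] at h1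
    have hne : (L'.map H.subtype).relIndex H ≠ 0 := by
      intro h0
      rw [h0, mul_zero] at hmul
      exact Nat.card_pos.ne' hmul.symm
    have h1 : (Nat.card H).factorization p =
        (Nat.card (L'.map H.subtype)).factorization p
          + ((L'.map H.subtype).relIndex H).factorization p := by
      rw [← hmul, Nat.factorization_mul Nat.card_pos.ne' hne, Finsupp.add_apply]
    have h3 : 0 < ((L'.map H.subtype).relIndex H).factorization p :=
      hp.factorization_pos_of_dvd hne hpd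
    rw [hcardK2, hfac] at h1
    omega
  · intro x hx
    have hx' := hc ⟨x, hXH hx⟩ (Subgroup.mem_subgroupOf.mpr hx)
    refine ⟨⟨x, hXH hx⟩, ?_, rfl⟩
    rw [hL']
    refine ⟨c * ⟨x, hXH hx⟩ * c⁻¹, hx', ?_⟩
    simp [mul_assoc]

end Cfsg.Agent.Lib.Helper2.S66HALLGE
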