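import Mathlib
import Cfsg.Agent.Lib.Helper55.S66Stmt
import Cfsg.Agent.Lib.Helper73.BG143Stmt
import Cfsg.Agent.Lib.Helper47.Syl

/-!
Piece MCENT of S1366: `C_G(x) ≤ N` for `1 ≠ x ∈ Z ∩ N_σ`.
-/

set_option autoImplicit false

namespace Cfsg.Agent.Lib.Helper2.S66MCENTCore

open Cfsg.Agent.Lib.Helper55.S66Stmt

universe u

/-- primes of `|M_σ|` are in `σ(M)` (`Cfsg.Agent.Lib.Helper9.BG11b.mem_sigma_of_dvd`) -/
def SigDvd : Prop :=
  ∀ {G : Type u} [Group G] [Finite G], Cfsg.IsMinSimpleOddOrder G → ∀ {M : Subgroup G},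
    IsCoatom M → ∀ {q : ℕ}, q.Prime → q ∣ Nat.card (Cfsg.sigmaCore M) → q ∈ Cfsg.sigma M

/-- `KN ⊓ N_σ = ⊥` -/
theorem disj (hS : SigDvd.{u}) {G : Type u} [Group G] [Finite G]
    (hG : Cfsg.IsMinSimpleOddOrder G)
    {Z N KN : Subgroup G} (h : Mem Z N KN) : KN ⊓ Cfsg.sigmaCore N = ⊥ := by
  rw [← disjoint_iff]
  apply Subgroup.disjoint_of_coprime_natCard
  apply Nat.coprime_of_dvd
  intro t ht h1 h2
  exact (h.hall.2.1 t ht h1).2.2.1 (hS hG h.hN ht h2)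

/-- `KN` normalizes (indeed centralizes) `Ks N KN` -/
theorem le_normalizer_Ks {G : Type u} [Group G] (N KN : Subgroup G) :
    KN ≤ Subgroup.normalizer ((Ks N KN : Subgroup G) : Set G) := by
  intro k hk
  have key : ∀ k ∈ KN, ∀ s, s ∈ Ks N KN → k * s * k⁻¹ = s := by
    intro k hk s hs
    have h1 := (Subgroup.mem_centralizer_iff.mp hs.2) k hk
    rw [h1]; group
  rw [Subgroup.mem_normalizer_iff]
  intro s
  constructor
  · intro hs; rw [key k hk s hs]; exact hs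
  · intro hs
    have h2 := key k⁻¹ (KN.inv_mem hk) (k * s * k⁻¹) hs
    have h3 : k⁻¹ * (k * s * k⁻¹) * k⁻¹⁻¹ = s := by group
    rw [h3] at h2
    rw [h2]; exact hs

/-- an element of `Z ⊓ N_σ` lies in `Ks N KN` -/
theorem mem_Ks (hS : SigDvd.{u}) {G : Type u} [Group G] [Finite G]
    (hG : Cfsg.IsMinSimpleOddOrder G)
    {Z N KN : Subgroup G} (h : Mem Z N KN) {x : G} (hx : x ∈ Z ⊓ Cfsg.sigmaCore N) :
    x ∈ Ks N KN := by
  have hxZ : x ∈ KN ⊔ Ks N KN := by rw [h.hZ]; exact hx.1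
  obtain ⟨k, hk, s, hs, hxks⟩ :=
    Cfsg.Agent.Lib.Helper47.Syl.exists_mul_of_mem_sup_left (le_normalizer_Ks N KN) hxZ
  have hk1 : k = 1 := by
    have hkσ : k ∈ Cfsg.sigmaCore N := by
      have e : k = x * s⁻¹ := by rw [hxks]; group
      rw [e]; exact Subgroup.mul_mem _ hx.2 (Subgroup.inv_mem _ hs.1)
    have h1 : k ∈ KN ⊓ Cfsg.sigmaCore N := ⟨hk, hkσ⟩
    rw [disj hS hG h] at h1
    exact Subgroup.mem_bot.mp h1
  rw [hxks, hk1, one_mul]; exact hs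

theorem main_of (hC : Cfsg.Agent.Lib.Helper73.BG143Stmt.ClaimC.{u}) (hS : SigDvd.{u}) :
    MCent.{u} := by
  intro G _ _ hG Z N KN h x hx hx1
  have hxKs := mem_Ks hS hG h hx
  have hcard : Nat.card KN ≠ 1 := by
    intro h1
    exact h.ne (Subgroup.card_eq_one.mp h1)
  obtain ⟨t, ht, htd⟩ := Nat.exists_prime_and_dvd hcard
  haveI : Fact t.Prime := ⟨ht⟩
  obtain ⟨y, hy⟩ := exists_prime_orderOf_dvd_card' (G := KN) t htd
  have hy' : orderOf (y : G) = t := by rw [Subgroup.orderOf_coe]; exact hy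
  have hcomm : (y : G) * x = x * (y : G) :=
    (Subgroup.mem_centralizer_iff.mp hxKs.2) (y : G) y.2
  exact hC hG N h.hN x (y : G) hx.2 hx1 (h.hall.1 y.2)
    hcomm (by rw [hy']; exact ht) (by rw [hy']; exact h.hall.2.1 t ht htd)

end Cfsg.Agent.Lib.Helper2.S66MCENTCore
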