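import Mathlib
import Cfsg.Agent.Lib.Helper55.S66Stmt
import Cfsg.Agent.Lib.Helper31.SigBasic

/-!
Piece NCONJ of S1366: two conjugate members sharing `Z` are equal.
-/

set_option autoImplicit false

namespace Cfsg.Agent.Lib.Helper2.S66NCONJCore

open Cfsg.Agent.Lib.Helper55.S66Stmt

universe u

/-- the statement of S1404 (`Cfsg.Agent.S1404.result`) -/
def S1404P : Prop :=
  ∀ {G : Type u} [Group G] [Finite G] (_ : Cfsg.IsMinSimpleOddOrder G)
    (M : Subgroup G) (_ : IsCoatom M) (p : ℕ) [Fact p.Prime] (_ : p ∈ Cfsg.sigma M)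
    (X : Subgroup G) (_ : IsPGroup p X) (_ : X ≠ ⊥) (_ : X ≤ M),
    (∀ g : G, X.map (MulAut.conj g).toMonoidHom ≤ M →
      ∃ m ∈ M, ∃ c ∈ Subgroup.centralizer (X : Set G), g = m * c) ∧
      Subgroup.normalizer (X : Set G) =
        (M ⊓ Subgroup.normalizer (X : Set G)) ⊔ Subgroup.centralizer (X : Set G)

theorem sigmaCore_le {G : Type u} [Group G] (M : Subgroup G) : Cfsg.sigmaCore M ≤ M :=
  Subgroup.map_subtype_le _

theorem main_of (h1404 : S1404P.{u}) (hMC : MCent.{u}) : NConj.{u} := by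
  intro G _ _ hG Z N KN N' KN' h h' hp g hg
  obtain ⟨p, hpσ, hpZ⟩ := hp
  have hpp : p.Prime := hpσ.1
  haveI : Fact p.Prime := ⟨hpp⟩
  -- p ∣ |Ks N KN|
  have hKsn : Ks N KN ≤ Subgroup.normalizer (KN : Set G) :=
    le_trans inf_le_right (Subgroup.centralizer_le_normalizer (KN : Set G))
  have hdvd : Nat.card Z ∣ Nat.card KN * Nat.card (Ks N KN) := by
    have h1 := Cfsg.Agent.Lib.Helper31.SigBasic.card_sup_dvd KN (Ks N KN) hKsn
    rwa [h.hZ] at h1
  have hpKs : p ∣ Nat.card (Ks N KN) := by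
    rcases (Nat.Prime.dvd_mul hpp).mp (hpZ.trans hdvd) with h1 | h1
    · exact absurd hpσ (h.hall.2.1 p hpp h1).2.2.1
    · exact h1
  obtain ⟨y, hy⟩ := exists_prime_orderOf_dvd_card' (G := Ks N KN) p hpKs
  obtain ⟨x, hxKs, hxy⟩ : ∃ x : G, x ∈ Ks N KN ∧ x = (y : G) := ⟨y, y.2, rfl⟩
  have hxord : orderOf x = p := by rw [hxy, Subgroup.orderOf_coe]; exact hy
  have hx1 : x ≠ 1 := by
    intro h1
    rw [h1, orderOf_one] at hxord
    exact hpp.one_lt.ne hxord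
  have hxσ : x ∈ Cfsg.sigmaCore N := hxKs.1
  have hxN : x ∈ N := sigmaCore_le N hxσ
  have hxZ : x ∈ Z := by rw [← h.hZ]; exact Subgroup.mem_sup_right hxKs
  have hZN' : Z ≤ N' := by
    rw [← h'.hZ]
    exact sup_le h'.hall.1
      (le_trans inf_le_left (sigmaCore_le N'))
  have hxN' : x ∈ N' := hZN' hxZ
  -- g⁻¹ x g ∈ N
  have hconj : g⁻¹ * x * g ∈ N := by
    rw [hg] at hxN'
    obtain ⟨n, hn, hnx⟩ := hxN'
    have e : g⁻¹ * x * g = n := by
      rw [← hnx]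
      simp [MulAut.conj_apply, mul_assoc]
    rw [e]; exact hn
  have hXp : IsPGroup p (Subgroup.zpowers x) :=
    IsPGroup.of_card (n := 1) (by rw [Nat.card_zpowers, hxord, pow_one])
  have hX1 : Subgroup.zpowers x ≠ ⊥ := by
    intro h1
    exact hx1 (Subgroup.zpowers_eq_bot.mp h1)
  have hXN : Subgroup.zpowers x ≤ N := Subgroup.zpowers_le.mpr hxN
  have hmap : (Subgroup.zpowers x).map (MulAut.conj g⁻¹).toMonoidHom ≤ N := by
    rw [MonoidHom.map_zpowers, Subgroup.zpowers_le]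
    have e : (MulAut.conj g⁻¹).toMonoidHom x = g⁻¹ * x * g := by
      simp [MulAut.conj_apply]
    rw [e]; exact hconj
  obtain ⟨m, hm, c, hc, hgmc⟩ :=
    (h1404 hG N h.hN p hpσ (Subgroup.zpowers x) hXp hX1 hXN).1 g⁻¹ hmap
  have hcN : c ∈ N := by
    apply hMC hG Z N KN h x ⟨hxZ, hxσ⟩ hx1
    rw [Subgroup.mem_centralizer_iff]
    intro y hy
    rw [Set.mem_singleton_iff] at hy
    subst hy
    exact (Subgroup.mem_centralizer_iff.mp hc) y (Subgroup.mem_zpowers y)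
  have hgN : g ∈ N := by
    have h1 : g⁻¹ ∈ N := by rw [hgmc]; exact N.mul_mem hm hcN
    have h2 := N.inv_mem h1
    rwa [inv_inv] at h2
  rw [hg]
  apply le_antisymm
  · rintro _ ⟨n, hn, rfl⟩
    show (MulAut.conj g) n ∈ N
    rw [MulAut.conj_apply]
    exact N.mul_mem (N.mul_mem hgN hn) (N.inv_mem hgN)
  · intro n hn
    refine ⟨g⁻¹ * n * g, N.mul_mem (N.mul_mem (N.inv_mem hgN) hn) hgN, ?_⟩
    show (MulAut.conj g) (g⁻¹ * n * g) = n
    rw [MulAut.conj_apply]; group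

end Cfsg.Agent.Lib.Helper2.S66NCONJCore
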