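import Mathlib
import Cfsg.Agent.Lib.Helper9.S81Stmt
import Cfsg.Agent.Lib.Helper35.S82Stmt
import Cfsg.Agent.Lib.Helper62.S89Stmt
import Cfsg.Agent.Lib.Helper23.TypeP
import Cfsg.Agent.S0001

set_option autoImplicit false

/-! S1381 (helper9's call) piece FWD2, core (helper2): a Type II maximal subgroup has `K ≠ 1` and
`U ≠ 1`.  The Bender-Glauberman inputs are hypotheses, stated as the `Prop`s of the landed
pieces: `KNe34` (`Helper65.S89KNE34.main`), `NDLe` (`Helper69.S82NDLE.main`), `P65`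
(`S1365.result`), `FHG` (`Helper47.S89FHG.main`). -/

namespace Cfsg.Agent.Lib.Helper2.S81FWD2Core

universe u

theorem main_of (hKNE : Cfsg.Agent.Lib.Helper62.S89Stmt.KNe34.{u})
    (hND : Cfsg.Agent.Lib.Helper35.S82Stmt.NDLe.{u})
    (h65 : Cfsg.Agent.Lib.Helper35.S82Stmt.P65.{u})
    (hFH : Cfsg.Agent.Lib.Helper62.S89Stmt.FHG.{u}) :
    Cfsg.Agent.Lib.Helper9.S81Stmt.Fwd2.{u} := by
  intro G _ _ hG M K U hM hKU hII
  obtain ⟨W₁, Ut, W₂, hP, hUt, hW1p, -, -, hNUt, -, -⟩ := hII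
  have hK : K ≠ ⊥ := hKNE hG M hM W₁ Ut W₂ K U hP hW1p hKU
  refine ⟨hK, ?_⟩
  intro hU
  apply hNUt
  have e : ⁅M, M⁆ = Cfsg.sigmaCore M := by
    have := (h65 hG M hM K U hKU hK).1
    rw [hU, bot_sup_eq] at this
    exact this
  have hc : Cfsg.IsComplIn (Cfsg.fittingHallOf M) Ut (Cfsg.sigmaCore M) := by
    have := hP.U_compl
    rw [e] at this
    exact this
  obtain ⟨F, hF⟩ : ∃ F : Subgroup G, F = Cfsg.fittingHallOf M := ⟨_, rfl⟩
  obtain ⟨Q, hQ⟩ : ∃ Q : Subgroup G, Q = Cfsg.sigmaCore M := ⟨_, rfl⟩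
  have hFG : (Nat.card ↥F).Coprime F.index := by rw [hF]; exact hFH hG M hM
  rw [← hF, ← hQ] at hc
  have hQM : Q ≤ M := by
    rw [hQ]; exact Subgroup.map_subtype_le _
  have hcard : Nat.card ↥Q = Nat.card ↥F * Nat.card ↥Ut :=
    Cfsg.Agent.Lib.Helper23.TypeP.card_of_isComplIn hc
  have hUtQ : Ut ≤ Q := hc.2.1
  have hrel : Nat.card ↥Ut * Ut.relIndex Q = Nat.card ↥Q := by
    have := Subgroup.card_mul_index (Ut.subgroupOf Q)
    rw [Cfsg.Agent.S0001.card_subgroupOf_of_le hUtQ] at this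
    exact this
  have hrel' : Ut.relIndex Q = Nat.card ↥F := by
    have h1 : Nat.card ↥Ut * Ut.relIndex Q = Nat.card ↥Ut * Nat.card ↥F := by
      rw [hrel, hcard, mul_comm]
    exact Nat.eq_of_mul_eq_mul_left Nat.card_pos h1
  have hdvd : Nat.card ↥Ut ∣ F.index := by
    have h1 : Nat.card ↥F * F.index = Nat.card G := Subgroup.card_mul_index F
    have h2 : Nat.card ↥Q ∣ Nat.card G := Subgroup.card_subgroup_dvd_card Q
    rw [hcard, ← h1] at h2
    exact Nat.dvd_of_mul_dvd_mul_left Nat.card_pos h2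
  have hcop : (Nat.card ↥Ut).Coprime (Ut.relIndex Q) := by
    rw [hrel']
    exact (Nat.Coprime.coprime_dvd_right hdvd hFG).symm
  rw [hQ] at hcop hUtQ
  exact hND hG M hM Ut hUtQ hUt hP.U_nilpotent hcop

end Cfsg.Agent.Lib.Helper2.S81FWD2Core
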