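import Mathlib
import Cfsg.Agent.Lib.Helper62.S89Stmt
import Cfsg.Agent.Lib.Helper2.Split
import Cfsg.Agent.Lib.Helper23.TypeP

set_option autoImplicit false

/-! S1389 (helper62's call) piece UBOT34, core (helper2): type-P data with `N_G(U_t) ≤ M` and
`K ≠ 1` force `U = 1`.  The heavy Bender-Glauberman inputs (BG147N0, S1350, BG14FHCore, S1365,
S1363) are explicit hypotheses of `main_of`, in exactly the shapes of the landed results. -/

namespace Cfsg.Agent.Lib.Helper2.S89UBOT34Core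

universe u

open scoped Pointwise

theorem le_normalizer_map {G : Type u} [Group G] (M : Subgroup G) (N : Subgroup M) [hN : N.Normal] :
    M ≤ Subgroup.normalizer ((N.map M.subtype : Subgroup G) : Set G) := by
  intro m hm
  rw [Subgroup.mem_normalizer_iff]
  intro x
  constructor
  · rintro ⟨y, hy, rfl⟩
    exact ⟨⟨m, hm⟩ * y * ⟨m, hm⟩⁻¹, hN.conj_mem y hy ⟨m, hm⟩, rfl⟩
  · rintro ⟨y, hy, hyx⟩
    refine ⟨⟨m, hm⟩⁻¹ * y * ⟨m, hm⟩, ?_, ?_⟩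
    · have := hN.conj_mem y hy (⟨m, hm⟩⁻¹)
      simpa using this
    · have h1 : ((⟨m, hm⟩⁻¹ * y * ⟨m, hm⟩ : M) : G) = m⁻¹ * (y : G) * m := rfl
      have h2 : (y : G) = m * x * m⁻¹ := hyx
      change ((⟨m, hm⟩⁻¹ * y * ⟨m, hm⟩ : M) : G) = x
      rw [h1, h2]; group

/-- product decomposition of `A ⊔ B` when `B` normalizes `A`. -/
theorem mem_sup_of_le_normalizer {G : Type u} [Group G] (A B : Subgroup G)
    (h : B ≤ Subgroup.normalizer (A : Set G)) :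
    ∀ x ∈ A ⊔ B, ∃ a ∈ A, ∃ b ∈ B, x = a * b := by
  have hconj : ∀ b ∈ B, ∀ a ∈ A, b * a * b⁻¹ ∈ A := by
    intro b hb a ha
    exact (Subgroup.mem_normalizer_iff.mp (h hb) a).mp ha
  let S : Subgroup G :=
    { carrier := {x | ∃ a ∈ A, ∃ b ∈ B, x = a * b}
      one_mem' := ⟨1, A.one_mem, 1, B.one_mem, by simp⟩
      mul_mem' := by
        rintro _ _ ⟨a, ha, b, hb, rfl⟩ ⟨a', ha', b', hb', rfl⟩
        refine ⟨a * (b * a' * b⁻¹), A.mul_mem ha (hconj b hb a' ha'), b * b', B.mul_mem hb hb', ?_⟩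
        group
      inv_mem' := by
        rintro _ ⟨a, ha, b, hb, rfl⟩
        refine ⟨b⁻¹ * a⁻¹ * b⁻¹⁻¹, hconj b⁻¹ (B.inv_mem hb) a⁻¹ (A.inv_mem ha), b⁻¹,
          B.inv_mem hb, ?_⟩
        group }
  have hS : A ⊔ B ≤ S := by
    apply sup_le
    · intro a ha; exact ⟨a, ha, 1, B.one_mem, by simp⟩
    · intro b hb; exact ⟨1, A.one_mem, b, hb, by simp⟩
  intro x hx
  exact hS hx

theorem main_of {G : Type u} [Group G] [Finite G] (hG : Cfsg.IsMinSimpleOddOrder G)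
    (M : Subgroup G) (hM : IsCoatom M) (W₁ Ut W₂ K U : Subgroup G)
    (hP : Cfsg.IsTypePWith M W₁ Ut W₂) (hN : Subgroup.normalizer (Ut : Set G) ≤ M)
    (hKU : Cfsg.IsSigmaDecomposition M K U)
    (hnil : U ≠ ⊥ → Group.IsNilpotent ↥(Cfsg.sigmaCore M))
    (hHall : Cfsg.IsPiHallOf (Cfsg.sigma M) (Cfsg.sigmaCore M) M)
    (hFH : Group.IsNilpotent ↥(Cfsg.sigmaCore M) → Cfsg.sigmaCore M = Cfsg.fittingHallOf M)
    (h65 : ⁅M, M⁆ = U ⊔ Cfsg.sigmaCore M)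
    (h63 : ¬ Subgroup.normalizer (U : Set G) ≤ M) : U = ⊥ := by
  by_contra hU
  have hQF : Cfsg.sigmaCore M = Cfsg.fittingHallOf M := hFH (hnil hU)
  obtain ⟨Q, hQ⟩ : ∃ Q : Subgroup G, Q = Cfsg.sigmaCore M := ⟨_, rfl⟩
  rw [← hQ] at hHall h65 hQF
  have hQM : Q ≤ M := hHall.1
  have hMQ : M ≤ Subgroup.normalizer (Q : Set G) := by
    rw [hQ]; exact le_normalizer_map M _
  have hUM : U ≤ M := hKU.compl.1
  have hQU : Q ⊓ U = ⊥ := by
    rw [eq_bot_iff, ← hKU.compl.2.2.1, ← hQ]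
    exact le_inf inf_le_right (inf_le_left.trans le_sup_right)
  have hUc : Cfsg.IsComplIn (Cfsg.fittingHallOf M) Ut ⁅M, M⁆ := hP.U_compl
  rw [← hQF] at hUc
  have hM'M : ⁅M, M⁆ ≤ M := by rw [h65]; exact sup_le hUM hQM
  have hQM' : Q ≤ ⁅M, M⁆ := hUc.1
  have hUM' : U ≤ ⁅M, M⁆ := by rw [h65]; exact le_sup_left
  have hcU : Cfsg.IsComplIn Q U ⁅M, M⁆ := by
    refine ⟨hQM', hUM', hQU, ?_⟩
    intro m hm
    rw [h65, sup_comm] at hm
    exact mem_sup_of_le_normalizer Q U (hUM.trans hMQ) m hm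
  have hc₁ : Nat.card Q * Nat.card U = Nat.card ↥⁅M, M⁆ :=
    (Cfsg.Agent.Lib.Helper23.TypeP.card_of_isComplIn hcU).symm
  have hc₂ : Nat.card Q * Nat.card Ut = Nat.card ↥⁅M, M⁆ :=
    (Cfsg.Agent.Lib.Helper23.TypeP.card_of_isComplIn hUc).symm
  have hsolv : Group.IsSolvable ↥Q := by
    apply hG.2.2.2
    intro h
    exact hM.1 (top_le_iff.mp (h ▸ hQM))
  have hcop : (Nat.card Q).Coprime (Nat.card U) := by
    by_contra hnc
    obtain ⟨p, hp, hpQ, hpU⟩ := Nat.Prime.not_coprime_iff_dvd.mp hnc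
    have hσ : p ∈ Cfsg.sigma M := hHall.2.1 p hp hpQ
    apply hHall.2.2 p hp hσ
    have h1 : Nat.card Q * Q.relIndex M = Nat.card M := by
      have := Subgroup.card_mul_index (Q.subgroupOf M)
      rw [Cfsg.Agent.S0001.card_subgroupOf_of_le hQM] at this
      exact this
    have h2 : Nat.card ↥⁅M, M⁆ ∣ Nat.card M := Subgroup.card_dvd_of_le hM'M
    rw [← hc₁, ← h1] at h2
    have h3 : Nat.card U ∣ Q.relIndex M :=
      Nat.dvd_of_mul_dvd_mul_left Nat.card_pos h2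
    exact hpU.trans h3
  obtain ⟨m, hmQ, hmU⟩ := Cfsg.Agent.Lib.Helper2.Split.conj_compl Q ⁅M, M⁆ U Ut hQM'
    (hM'M.trans hMQ) hsolv hUM' hUc.2.1 hQU hUc.2.2.1 hc₁ hc₂ hcop
  apply h63
  intro n hn
  have key : ∀ x, x ∈ Ut ↔ m⁻¹ * x * m ∈ U := by
    intro x
    rw [← hmU, Subgroup.mem_pointwise_smul_iff_inv_smul_mem]
    simp [MulAut.smul_def]
  have hmn : m * n * m⁻¹ ∈ Subgroup.normalizer (Ut : Set G) := by
    rw [Subgroup.mem_normalizer_iff]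
    intro h
    rw [key, key]
    have h1 : m⁻¹ * h * m ∈ U ↔ n * (m⁻¹ * h * m) * n⁻¹ ∈ U :=
      (Subgroup.mem_normalizer_iff.mp hn) (m⁻¹ * h * m)
    rw [h1]
    have h2 : m⁻¹ * (m * n * m⁻¹ * h * (m * n * m⁻¹)⁻¹) * m = n * (m⁻¹ * h * m) * n⁻¹ := by group
    rw [h2]
  have h3 : m * n * m⁻¹ ∈ M := hN hmn
  have hmM : m ∈ M := hQM hmQ
  have h4 : n = m⁻¹ * (m * n * m⁻¹) * m := by group
  rw [h4]
  exact M.mul_mem (M.mul_mem (M.inv_mem hmM) h3) hmM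

end Cfsg.Agent.Lib.Helper2.S89UBOT34Core
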