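import Mathlib
import Cfsg.Prelude.Def_Solvable
import Cfsg.Agent.Lib.Helper23.Cores
import Cfsg.Agent.Lib.Helper78.Fitting
import Cfsg.Agent.Lib.Helper55.SolvCore
import Cfsg.Agent.Lib.Helper20.ThStep1
import Cfsg.Agent.Lib.Helper53.ThRank
import Cfsg.Agent.Lib.Helper62.Aniso
import Cfsg.Agent.Lib.Helper64.ThWeights
import Cfsg.Agent.Lib.Helper49.ThIndex
import Cfsg.Agent.Lib.Helper96.ThConfig

set_option autoImplicit false

universe u

namespace Cfsg.Agent.Lib.Helper2.ThAsm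

open Cfsg.Agent.Lib.Helper20.ThStep1 Cfsg.Agent.Lib.Helper53.ThRank Cfsg.Agent.Lib.Helper62.Aniso
  Cfsg.Agent.Lib.Helper64.ThWeights Cfsg.Agent.Lib.Helper49.ThIndex Cfsg.Agent.Lib.Helper96.ThConfig

/-- A nontrivial 2-element has a power which is an involution. -/
theorem exists_invol_pow {G : Type*} [Group G] (t : G) (k : ℕ) (ht : t ^ 2 ^ k = 1) (ht1 : t ≠ 1) :
    ∃ j : ℕ, t ^ 2 ^ j ≠ 1 ∧ (t ^ 2 ^ j) ^ 2 = 1 := by
  induction k with
  | zero => exact absurd (by simpa using ht) ht1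
  | succ k ih =>
    by_cases h : t ^ 2 ^ k = 1
    · exact ih h
    · refine ⟨k, h, ?_⟩
      rw [← pow_mul, ← pow_succ]; exact ht

theorem two_pow_ge (n : ℕ) (hn : 2 ≤ n) : n + 2 ≤ 2 ^ n := by
  induction n with
  | zero => omega
  | succ n ih =>
    rcases Nat.lt_or_ge n 2 with h | h
    · have : n = 1 := by omega
      subst this; norm_num
    · have := ih h
      rw [pow_succ]; omega

/-- The core: a finite solvable group with no nontrivial normal subgroup of odd order, one class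
of involutions and at least two involutions has a normal Sylow 2-subgroup. -/
theorem core {G : Type u} [Group G] [Finite G] (hsol : Group.IsSolvable G)
    (hO : ∀ K : Subgroup G, K.Normal → (Nat.card K).Coprime 2 → K = ⊥)
    (hconj : ∀ x y : G, x ≠ 1 → x ^ 2 = 1 → y ≠ 1 → y ^ 2 = 1 → ∃ g : G, g * x * g⁻¹ = y)
    (h2 : ∃ x y : G, x ≠ y ∧ x ≠ 1 ∧ x ^ 2 = 1 ∧ y ≠ 1 ∧ y ^ 2 = 1) :
    ∃ Q : Subgroup G, Q.Normal ∧ IsPGroup 2 Q ∧ (∀ x : G, x ^ 2 = 1 → ∀ q ∈ Q, x * q = q * x) ∧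
      ∀ (t : G) (k : ℕ), t ^ 2 ^ k = 1 → t ∈ Q := by
  classical
  haveI : Fact (Nat.Prime 2) := ⟨Nat.prime_two⟩
  set Q := Cfsg.pCore 2 G with hQdef
  have hQn : Q.Normal := Helper78.Fitting.pCore_normal 2
  have hQ : IsPGroup 2 Q := Helper23.Cores.pCore_isPGroup 2
  have hQmax : ∀ H : Subgroup G, H.Normal → IsPGroup 2 H → H ≤ Q :=
    fun H hH h => Helper23.Cores.le_pCore 2 H hH h
  have hCQ : Subgroup.centralizer (Q : Set G) ≤ Q :=
    Helper55.SolvCore.centralizer_le_of_solvable 2 hsol hO Q hQmax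
  obtain ⟨x0, y0, hxy, hx1, hx2, hy1, hy2⟩ := h2
  have hQne : Q ≠ ⊥ := by
    intro h
    have : x0 ∈ Q := hCQ (by rw [h]; simp [Subgroup.mem_centralizer_iff])
    rw [h] at this; exact hx1 (Subgroup.mem_bot.1 this)
  -- a central involution of Q
  obtain ⟨z0, hz0Q, hz0c, hz01, hz02⟩ :
      ∃ z : G, z ∈ Q ∧ (∀ q ∈ Q, z * q = q * z) ∧ z ≠ 1 ∧ z ^ 2 = 1 := by
    haveI : Nontrivial Q := by
      rw [Subgroup.nontrivial_iff_ne_bot]; exact hQne
    haveI := hQ.center_nontrivial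
    obtain ⟨⟨z, hz⟩, hzne⟩ := exists_ne (1 : Subgroup.center Q)
    have hz1 : z ≠ 1 := fun h => hzne (Subtype.ext h)
    obtain ⟨k, hk⟩ := hQ z
    have hk' : (z : G) ^ 2 ^ k = 1 := by
      have := congrArg Subtype.val hk
      simpa using this
    have hz1' : (z : G) ≠ 1 := fun h => hz1 (Subtype.ext h)
    obtain ⟨j, hj1, hj2⟩ := exists_invol_pow (z : G) k hk' hz1'
    refine ⟨(z : G) ^ 2 ^ j, Q.pow_mem z.2 _, ?_, hj1, hj2⟩
    intro q hq
    have h1 : z * ⟨q, hq⟩ = ⟨q, hq⟩ * z := ((Subgroup.mem_center_iff.1 hz) ⟨q, hq⟩).symm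
    have h2 : (z : G) * q = q * (z : G) := congrArg Subtype.val h1
    exact ((Commute.pow_left (show Commute (z : G) q from h2) _).eq)
  have hinv : ∀ x : G, x ^ 2 = 1 → x ∈ Q ∧ ∀ q ∈ Q, x * q = q * x := by
    intro x hx
    by_cases hx1' : x = 1
    · subst hx1'; exact ⟨Q.one_mem, fun q _ => by simp⟩
    obtain ⟨g, hg⟩ := hconj z0 x hz01 hz02 hx1' hx
    subst hg
    refine ⟨hQn.conj_mem _ hz0Q g, fun q hq => ?_⟩
    have := hz0c (g⁻¹ * q * g) (by simpa using hQn.conj_mem _ hq g⁻¹)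
    calc g * z0 * g⁻¹ * q = g * (z0 * (g⁻¹ * q * g)) * g⁻¹ := by group
      _ = g * ((g⁻¹ * q * g) * z0) * g⁻¹ := by rw [this]
      _ = q * (g * z0 * g⁻¹) := by group
  let V : Subgroup G :=
    { carrier := {x | x ^ 2 = 1}
      one_mem' := by simp
      mul_mem' := by
        intro a b ha hb
        have ha' : a ^ 2 = 1 := ha
        have hb' : b ^ 2 = 1 := hb
        have hc := (hinv a ha').2 b (hinv b hb').1
        show (a * b) ^ 2 = 1
        rw [(show Commute a b from hc).mul_pow, ha', hb', one_mul]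
      inv_mem' := by
        intro a ha
        have ha' : a ^ 2 = 1 := ha
        show a⁻¹ ^ 2 = 1
        rw [inv_pow, ha', inv_one] }
  have hV : ∀ x : G, x ∈ V ↔ x ^ 2 = 1 := fun x => Iff.rfl
  have hVn : V.Normal := by
    refine ⟨fun x hx g => ?_⟩
    have hx' : x ^ 2 = 1 := hx
    show (g * x * g⁻¹) ^ 2 = 1
    rw [conj_pow, hx', mul_one, mul_inv_cancel]
  have hcent : ∀ (t : G) (k : ℕ), t ^ 2 ^ k = 1 → ∀ v ∈ V, t * v = v * t :=
    fun t k ht => two_elements_centralize hsol V hV hconj t k ht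
  set C := Subgroup.centralizer (V : Set G) with hCdef
  have hCn : C.Normal := Subgroup.normal_centralizer
  have h2C : ∀ (t : G) (k : ℕ), t ^ 2 ^ k = 1 → t ∈ C := by
    intro t k ht
    rw [hCdef, Subgroup.mem_centralizer_iff]
    intro v hv
    exact (hcent t k ht v hv).symm
  refine ⟨Q, hQn, hQ, fun x hx => (hinv x hx).2, ?_⟩
  by_contra hne
  push Not at hne
  obtain ⟨r, R, T, N, hr, hr2, hR, hRC, hT, hTR, hNR, hNT, hel, hsq, hnt, hfac⟩ :=
    exists_config hsol Q C hQn hCn hQ hQmax h2C hne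
  haveI : Fact r.Prime := ⟨hr⟩
  have htransN : ∀ x y : G, x ≠ 1 → x ^ 2 = 1 → y ≠ 1 → y ^ 2 = 1 →
      ∃ g ∈ N, g * x * g⁻¹ = y := by
    intro x y hx1 hx2 hy1 hy2
    obtain ⟨g, hg⟩ := hconj x y hx1 hx2 hy1 hy2
    obtain ⟨c, hc, n, hn, rfl⟩ := hfac g
    refine ⟨n, hn, ?_⟩
    have hv : n * x * n⁻¹ ∈ V := hVn.conj_mem x hx2 n
    have hcv := (Subgroup.mem_centralizer_iff.1 hc) _ hv
    rw [← hg]
    calc n * x * n⁻¹ = (n * x * n⁻¹ * c) * c⁻¹ := by group
      _ = (c * (n * x * n⁻¹)) * c⁻¹ := by rw [hcv]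
      _ = c * n * x * (c * n)⁻¹ := by group
  have hm : ∀ T' : Subgroup G, T' ≤ T → T'.relIndex T = 2 →
      Nat.card V - 1 ≤ (N ⊓ Subgroup.normalizer (T' : Set G)).relIndex N :=
    fun T' hT' hidx => index_bound V T N hV hT hNT htransN T' hT' hidx
  obtain ⟨A, hAR, hAc, hAr, hAcard⟩ :=
    exists_elemAb r hr2 R T N hR hT hTR hNR hNT hel hsq hnt (Nat.card V - 1) hm
  have hVp : IsPGroup 2 V := by
    intro v
    refine ⟨1, ?_⟩
    apply Subtype.ext
    have : (v : G) ^ 2 = 1 := v.2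
    simpa using this
  obtain ⟨n, hn⟩ := (IsPGroup.iff_card).1 hVp
  have hcardQ : Nat.card {x : G // x ∈ Q ∧ x ^ 2 = 1} ≤ 2 ^ n := by
    rw [← hn]
    apply le_of_eq
    apply Nat.card_congr
    exact Equiv.subtypeEquivRight (fun x => ⟨fun h => h.2, fun h => ⟨(hinv x h).1, h⟩⟩)
  have hrank : Nat.card A ≤ r ^ n := by
    refine rank_le r hr2 (fun k U Z _ _ _ _ h2U h2Z sq β hsq hβ hβadd 𝒜 hadd hcomm hexp hinv hk =>
      aniso_bound r hr2 k U Z h2U h2Z sq β hsq hβ hβadd 𝒜 hadd hcomm hexp hinv hk)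
      Q A hQ ?_ hAc hAr ?_ ?_ ?_ n hcardQ
    · intro a _
      exact (Subgroup.normalizer_eq_top (H := Q)).symm ▸ Subgroup.mem_top a
    · intro x hx hx2 y hy
      exact (hinv x hx2).2 y hy
    · intro x hx hx2 a ha
      have haC : a ∈ C := hRC (hAR ha)
      exact ((Subgroup.mem_centralizer_iff.1 haC) x hx2).symm
    · intro a ha hcen
      have haQ : a ∈ Q := hCQ (by
        rw [Subgroup.mem_centralizer_iff]
        intro x hx
        exact (hcen x hx).symm)
      obtain ⟨k, hk⟩ := hQ ⟨a, haQ⟩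
      have hk' : a ^ 2 ^ k = 1 := by
        have := congrArg Subtype.val hk
        simpa using this
      have h1 : orderOf a ∣ 2 ^ k := orderOf_dvd_of_pow_eq_one hk'
      have h2 : orderOf a ∣ r := orderOf_dvd_of_pow_eq_one (hAr a ha)
      have hcop : Nat.Coprime (2 ^ k) r := by
        apply Nat.Coprime.pow_left
        rw [Nat.coprime_comm]
        exact (Nat.coprime_primes hr Nat.prime_two).2 hr2
      have := Nat.eq_one_of_dvd_coprimes hcop h1 h2
      exact orderOf_eq_one_iff.1 this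
  have hle : r ^ (Nat.card V - 1) ≤ r ^ n := le_trans hAcard hrank
  have hle' : Nat.card V - 1 ≤ n := (Nat.pow_le_pow_iff_right hr.one_lt).1 hle
  -- |V| ≥ 3
  have h3 : 3 ≤ Nat.card V := by
    let f : Fin 3 → V := ![⟨1, V.one_mem⟩, ⟨x0, hx2⟩, ⟨y0, hy2⟩]
    have hf : Function.Injective f := by
      intro i j hij
      fin_cases i <;> fin_cases j <;> simp [f] at hij ⊢
      · exact hx1 hij.symm
      · exact hy1 hij.symm
      · exact hx1 hij
      · exact hxy hij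
      · exact hy1 hij
      · exact hxy hij.symm
    have := Nat.card_le_card_of_injective f hf
    simpa using this
  have hn2 : 2 ≤ n := by
    by_contra hlt
    push Not at hlt
    have : n = 0 ∨ n = 1 := by omega
    rcases this with h | h <;> subst h <;> omega
  have := two_pow_ge n hn2
  omega

end Cfsg.Agent.Lib.Helper2.ThAsm
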